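import Cfsg.Agent.H1.SpC6.Theta

/-!
An element of order three in a stabiliser forces the whole centraliser of a member of the frame.
-/

set_option autoImplicit false

open Matrix MatrixGroups

namespace Cfsg.Agent.H1.SpC6

variable {F : Type*} [Field F]

local notation "M4" => Matrix (Fin 2 ⊕ Fin 2) (Fin 2 ⊕ Fin 2) F
local notation "G4" => GL (Fin 2 ⊕ Fin 2) F

variable {t : Fin 5 → GL (Fin 2 ⊕ Fin 2) F} {M : Subgroup (GL (Fin 2 ⊕ Fin 2) F)} {a b : F}

/-- The subgroups containing the monomial group. -/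
structure Base (t : Fin 5 → G4) (M : Subgroup G4) : Prop where
  fr : Fr t
  le : M ≤ Cfsg.spGL 2 F
  mono_mem : ∀ g ∈ Cfsg.spGL 2 F, MonoAct t g → g ∈ M

/-- The combination is a member of the subgroup. -/
def InM (t : Fin 5 → G4) (M : Subgroup G4) (v : Fin 5 → F) : Prop :=
  ∃ g ∈ M, (g : M4) = vec t v

theorem Base.t_mem (B : Base t M) (i : Fin 5) : t i ∈ M := B.mono_mem _ (B.fr.sp i) (B.fr.mono_t i)

theorem Base.neg_one_mem (B : Base t M) : (-1 : G4) ∈ M :=
  B.mono_mem _ (neg_mem_spGL (one_mem _)) fun i => ⟨i, Or.inl (by simp)⟩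

theorem InM.congr {v w : Fin 5 → F} (hv : InM t M v) (e : v = w) : InM t M w := e ▸ hv

theorem Base.inM_neg (B : Base t M) {v : Fin 5 → F} (hv : InM t M v) : InM t M (-v) := by
  obtain ⟨g, hg, e⟩ := hv
  exact ⟨-1 * g, mul_mem B.neg_one_mem hg, by rw [neg_one_mul, Units.val_neg, e, vec_neg]⟩

theorem Base.flip (B : Base t M) (k : Fin 5) {v : Fin 5 → F} (hv : InM t M v) :
    InM t M (Function.update v k (-v k)) := by
  obtain ⟨g, hg, e⟩ := hv
  have : InM t M (fun i => if i = k then v i else -v i) :=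
    ⟨t k * g * t k, mul_mem (mul_mem (B.t_mem k) hg) (B.t_mem k), by
      rw [Units.val_mul, Units.val_mul, e, B.fr.t_vec_t]⟩
  refine (B.inM_neg this).congr (funext fun i => ?_)
  by_cases h : i = k
  · subst h; simp
  · simp [h]

theorem Base.cyc (B : Base t M) {p q r : Fin 5} (hpq : p ≠ q) (hqr : q ≠ r) (hpr : p ≠ r)
    {v : Fin 5 → F} (hv : InM t M v) :
    InM t M (fun i => if i = q then v p else if i = r then v q else if i = p then v r else v i) := by
  obtain ⟨g, hg, e⟩ := hv
  obtain ⟨π, hπ, hp, hq, hr, hd⟩ := B.fr.exists_three hpq hqr hpr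
  have hπM : π ∈ M := B.mono_mem π hπ fun i => by
    by_cases h1 : i = p
    · exact ⟨q, Or.inl (h1 ▸ hp)⟩
    by_cases h2 : i = q
    · exact ⟨r, Or.inl (h2 ▸ hq)⟩
    by_cases h3 : i = r
    · exact ⟨p, Or.inl (h3 ▸ hr)⟩
    exact ⟨i, Or.inl (hd i h1 h2 h3)⟩
  refine ⟨π * g * π⁻¹, mul_mem (mul_mem hπM hg) (inv_mem hπM), ?_⟩
  rw [Units.val_mul, Units.val_mul, e, vec, vec, Finset.mul_sum, Finset.sum_mul]
  refine Fintype.sum_equiv (Equiv.swap p r * Equiv.swap p q) _ _ fun i => ?_
  have key : (π * t i * π⁻¹) = t ((Equiv.swap p r * Equiv.swap p q) i) := by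
    by_cases h1 : i = p
    · rw [h1, hp, Equiv.Perm.mul_apply, Equiv.swap_apply_left, Equiv.swap_apply_of_ne_of_ne hpq.symm hqr]
    by_cases h2 : i = q
    · rw [h2, hq, Equiv.Perm.mul_apply, Equiv.swap_apply_right, Equiv.swap_apply_left]
    by_cases h3 : i = r
    · rw [h3, hr, Equiv.Perm.mul_apply, Equiv.swap_apply_of_ne_of_ne hpr.symm hqr.symm,
        Equiv.swap_apply_right]
    rw [hd i h1 h2 h3, Equiv.Perm.mul_apply, Equiv.swap_apply_of_ne_of_ne h1 h2,
      Equiv.swap_apply_of_ne_of_ne h1 h3]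
  rw [mul_smul_comm, smul_mul_assoc, ← Units.val_mul, ← Units.val_mul, key]
  congr 1
  by_cases h1 : i = p
  · rw [h1, Equiv.Perm.mul_apply, Equiv.swap_apply_left, Equiv.swap_apply_of_ne_of_ne hpq.symm hqr, if_pos rfl]
  by_cases h2 : i = q
  · rw [h2, Equiv.Perm.mul_apply, Equiv.swap_apply_right, Equiv.swap_apply_left, if_neg hqr.symm, if_pos rfl]
  by_cases h3 : i = r
  · rw [h3, Equiv.Perm.mul_apply, Equiv.swap_apply_of_ne_of_ne hpr.symm hqr.symm, Equiv.swap_apply_right,
      if_neg hpq, if_neg hpr, if_pos rfl]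
  rw [Equiv.Perm.mul_apply, Equiv.swap_apply_of_ne_of_ne h1 h2, Equiv.swap_apply_of_ne_of_ne h1 h3,
    if_neg h2, if_neg h3, if_neg h1]

theorem Base.refl (B : Base t M) {u x : Fin 5 → F} (hu : InM t M u) (hx : InM t M x) (h1 : u ⬝ᵥ u = 1) :
    InM t M ((2 * (u ⬝ᵥ x)) • u - x) := by
  obtain ⟨g, hg, eg⟩ := hu
  obtain ⟨k, hk, ek⟩ := hx
  refine ⟨g * k * g, mul_mem (mul_mem hg hk) hg, ?_⟩
  rw [Units.val_mul, Units.val_mul, eg, ek, eq_sub_of_add_eq (B.fr.vec_mul_add u x), sub_mul, smul_mul_assoc,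
    one_mul, mul_assoc, B.fr.vec_sq, h1, one_smul, mul_one, sub_eq_add_neg ((2 * (u ⬝ᵥ x)) • u), vec_add,
    vec_smul, vec_neg, ← sub_eq_add_neg]

/-- The pairs lying in the subgroup. -/
noncomputable abbrev pairs (h : Fr t) (q : QPar a b) (M : Subgroup G4) : Subgroup (SL(2, F) × SL(2, F)) :=
  M.comap (h.theta q)

theorem Base.loc (B : Base t M) (q : QPar a b) : Loc q (pairs B.fr q M) where
  swap x y hxy := by
    have e : B.fr.theta q (y, x) = t 3 * B.fr.theta q (x, y) * t 3 := by
      rw [mul_assoc, B.fr.theta_three, ← mul_assoc, B.fr.sq', one_mul]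
    show B.fr.theta q (y, x) ∈ M
    rw [e]
    exact mul_mem (mul_mem (B.t_mem 3) hxy) (B.t_mem 3)
  quat g hg := B.mono_mem _ (B.fr.theta_sp q _)
    (B.fr.theta_mono q (nrm_of_mem q (one_mem _)) (by rwa [inv_one, one_mul]))
  diag x hx := B.mono_mem _ (B.fr.theta_sp q _)
    (B.fr.theta_mono q hx (by rw [inv_mul_cancel]; exact one_mem _))

theorem Base.proj_of_inM (B : Base t M) (q : QPar a b) {v : Fin 5 → F} (hv : InM t M v) {g : SL(2, F)}
    {w x y z : F}
    (hg : (g : Matrix (Fin 2) (Fin 2) F) =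
      !![w + a * y + b * z, x + b * y - a * z; -x + b * y - a * z, w - a * y - b * z])
    (hvg : v = ![x, y, -z, w, 0]) : g ∈ proj (pairs B.fr q M) := by
  obtain ⟨u, hu, eu⟩ := hv
  have e : B.fr.theta q (g, g⁻¹) = t 3 * u := by
    rw [show u = B.fr.tau q g from Units.ext (by rw [eu, hvg, B.fr.tau_eq_vec q hg]), Fr.tau, ← mul_assoc,
      B.fr.sq', one_mul]
  refine (B.loc q).fst_mem (show (g, g⁻¹) ∈ pairs B.fr q M from ?_)
  show B.fr.theta q (g, g⁻¹) ∈ M
  rw [e]
  exact mul_mem (B.t_mem 3) hu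

theorem not_nrm_of_coords (q : QPar a b) {g : SL(2, F)} {w x y z : F}
    (hg : (g : Matrix (Fin 2) (Fin 2) F) =
      !![w + a * y + b * z, x + b * y - a * z; -x + b * y - a * z, w - a * y - b * z])
    (hP : w * w + x * x - y * y - z * z ≠ 0) (hJ : x * y + w * z ≠ 0) : ¬ Nrm q g := by
  intro hn
  have e00 : g 0 0 = w + a * y + b * z := congrFun (congrFun hg 0) 0
  have e01 : g 0 1 = x + b * y - a * z := congrFun (congrFun hg 0) 1
  have e10 : g 1 0 = -x + b * y - a * z := congrFun (congrFun hg 1) 0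
  have e11 : g 1 1 = w - a * y - b * z := congrFun (congrFun hg 1) 1
  set c := g * qi * g⁻¹ with hc
  have h2 := q.two
  have cP : c 0 1 - c 1 0 = 2 * (w * w + x * x - y * y - z * z) := by
    simp only [hc, qi, H6.sl2_mul, H6.sl2_00, H6.sl2_01, H6.sl2_10, H6.sl2_11, H6.sl2_inv_00, H6.sl2_inv_01,
      H6.sl2_inv_10, H6.sl2_inv_11, e00, e01, e10, e11]
    linear_combination (2 * (y * y + z * z)) * q.eq
  have cJ : a * c 0 0 + b * ((c 0 1 + c 1 0) / 2) = -2 * (x * y + w * z) := by
    simp only [hc, qi, H6.sl2_mul, H6.sl2_00, H6.sl2_01, H6.sl2_10, H6.sl2_11, H6.sl2_inv_00, H6.sl2_inv_01,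
      H6.sl2_inv_10, H6.sl2_inv_11, e00, e01, e10, e11]
    field_simp
    linear_combination (4 * (x * y + w * z)) * q.eq
  have hne : c 0 1 - c 1 0 ≠ 0 := by rw [cP]; exact mul_ne_zero h2 hP
  have hne' : a * c 0 0 + b * ((c 0 1 + c 1 0) / 2) ≠ 0 := by
    rw [cJ]; exact mul_ne_zero (neg_ne_zero.2 h2) hJ
  have hm : c ∈ q8 q := hn.1
  clear_value c
  rcases q8_cases q hm with e | e | e | e
  · obtain ⟨h01, h10, -⟩ := H6.π_eq_one_iff_isScal.1 e
    exact hne (by rw [h01, h10, sub_zero])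
  · rcases H6.π_eq_iff.1 e with e | e <;> refine hne' ?_ <;> rw [e] <;> simp [qi, H6.sl2_neg]
  · rcases H6.π_eq_iff.1 e with e | e <;> refine hne ?_ <;> rw [e] <;> simp [qj, H6.sl2_neg]
  · rcases H6.π_eq_iff.1 e with e | e <;> refine hne ?_ <;> rw [e] <;>
      simp [qk, qi, qj, H6.sl2_mul, H6.sl2_neg]

/-- The element of order three gives a vector with four equal coordinates. -/
theorem Base.half_four (B : Base t M) (q : QPar a b) (hom : om q ∈ kern (pairs B.fr q M)) :
    InM t M ![(2 : F)⁻¹, 2⁻¹, 2⁻¹, 2⁻¹, 0] := by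
  have hm : B.fr.theta q (1, om q) ∈ M := hom
  have h1 : InM t M ![(2 : F)⁻¹, 2⁻¹, -2⁻¹, -2⁻¹, 0] := by
    refine ⟨B.fr.theta q (1, om q) * B.fr.tau q 1 * (B.fr.theta q (1, om q))⁻¹,
      mul_mem (mul_mem hm (by rw [B.fr.tau_one]; exact B.t_mem 3)) (inv_mem hm), ?_⟩
    rw [B.fr.theta_conj_tau, mul_one, inv_one, mul_one]
    refine B.fr.tau_eq_vec q (w := -2⁻¹) (x := 2⁻¹) (y := 2⁻¹) (z := 2⁻¹) ?_
    have := q.two
    ext u v
    fin_cases u <;> fin_cases v <;> simp [om, H6.sl2] <;> field_simp <;> ring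
  refine (B.flip 3 (B.flip 2 h1)).congr (funext fun i => ?_)
  fin_cases i <;> simp [Function.update]

/-- The same vector with the zero in front. -/
theorem Base.half_zero (B : Base t M) {u : F} (hu : InM t M ![u, u, u, u, 0]) : InM t M ![0, u, u, u, u] := by
  refine (B.cyc (p := 4) (q := 0) (r := 1) (by decide) (by decide) (by decide) hu).congr (funext fun i => ?_)
  fin_cases i <;> simp

section Fintype

variable [Fintype F]

theorem num_ne (hp : (Fintype.card F).Prime) (n : ℕ) (hn : ¬ Fintype.card F ∣ n) : (n : F) ≠ 0 := by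
  haveI := Fact.mk hp
  haveI : CharP F (Fintype.card F) := charP_of_card_eq_prime rfl
  rwa [Ne, CharP.cast_eq_zero_iff F (Fintype.card F)]

theorem exists_bad_circle (hp : (Fintype.card F).Prime) (h11 : 11 ≤ Fintype.card F) :
    ∃ α β : F, α ^ 2 + 3 * β ^ 2 = 1 ∧ ∀ g : SL(2, F), H6.tr g = -2 * α → Bad g := by
  set p := Fintype.card F with hpdef
  have small : ∀ n : ℕ, 0 < n → n < p → (n : F) ≠ 0 := fun n h0 hlt =>
    num_ne hp n fun hd => absurd (Nat.le_of_dvd h0 hd) (by rw [← hpdef]; omega)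
  have h2 : (2 : F) ≠ 0 := by exact_mod_cast small 2 (by norm_num) (by omega)
  have h3 : (3 : F) ≠ 0 := by exact_mod_cast small 3 (by norm_num) (by omega)
  have h5 : (5 : F) ≠ 0 := by exact_mod_cast small 5 (by norm_num) (by omega)
  have h7 : (7 : F) ≠ 0 := by exact_mod_cast small 7 (by norm_num) (by omega)
  by_cases hp' : p = 31 ∨ p = 47 ∨ p = 59
  · have c : ∀ n : ℕ, ¬ p ∣ n → (n : F) ≠ 0 := fun n hn => num_ne hp n hn
    have h13 : (13 : F) ≠ 0 := by exact_mod_cast small 13 (by norm_num) (by omega)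
    have h11' : (11 : F) ≠ 0 := by exact_mod_cast small 11 (by norm_num) (by omega)
    have hA : (146 : F) ≠ 0 := by
      exact_mod_cast c 146 (by rcases hp' with e | e | e <;> rw [e] <;> norm_num)
    have hB : (17429 : F) ≠ 0 := by
      exact_mod_cast c 17429 (by rcases hp' with e | e | e <;> rw [e] <;> norm_num)
    refine ⟨-11 / 13, 4 / 13, by field_simp; norm_num, fun g hg => bad_of_tr ?_ ?_ ?_ ?_ ?_⟩ <;> rw [hg]
    · intro e
      exact div_ne_zero (mul_ne_zero h2 h11') h13 (by linear_combination e)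
    · intro e
      field_simp at e
      exact mul_ne_zero (mul_ne_zero h3 h3) (mul_ne_zero h5 h7) (by linear_combination e)
    · intro e
      field_simp at e
      exact hA (by linear_combination 2 * e)
    · intro e
      field_simp at e
      exact mul_ne_zero (mul_ne_zero (mul_ne_zero h2 h2) h3)
        (mul_ne_zero (mul_ne_zero h2 h2) (mul_ne_zero h2 h2)) (by linear_combination -e)
    · intro e
      field_simp at e
      exact hB (by linear_combination e)
  · push Not at hp'
    obtain ⟨n31, n47, n59⟩ := hp'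
    have c : ∀ n : ℕ, n.Prime → p ≠ n → (n : F) ≠ 0 := fun n hn hne =>
      num_ne hp n fun hd => hne ((Nat.prime_dvd_prime_iff_eq hp hn).1 hd)
    have h31 : (31 : F) ≠ 0 := by exact_mod_cast c 31 (by norm_num) n31
    have h47 : (47 : F) ≠ 0 := by exact_mod_cast c 47 (by norm_num) n47
    have h59 : (59 : F) ≠ 0 := by exact_mod_cast c 59 (by norm_num) n59
    refine ⟨1 / 7, 4 / 7, by field_simp; norm_num, fun g hg => bad_of_tr ?_ ?_ ?_ ?_ ?_⟩ <;> rw [hg]
    · intro e
      field_simp at e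
      exact h2 (by linear_combination -e)
    · intro e
      field_simp at e
      exact mul_ne_zero (mul_ne_zero h3 h3) h5 (by linear_combination -e)
    · intro e
      field_simp at e
      exact h47 (by linear_combination -e)
    · intro e
      field_simp at e
      exact mul_ne_zero (mul_ne_zero (mul_ne_zero (mul_ne_zero h2 h2) (mul_ne_zero h2 h2)) h3)
        (mul_ne_zero h2 h2) (by linear_combination -e)
    · intro e
      field_simp at e
      exact mul_ne_zero h31 h59 (by linear_combination e)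

theorem exists_sq_add_eq (h2 : (2 : F) ≠ 0) (c : F) : ∃ a b : F, a ^ 2 + b ^ 2 = c := by
  have hodd : Fintype.card F % 2 = 1 := FiniteField.odd_card_of_char_ne_two fun hc => h2 (by
    have := ringChar.Nat.cast_ringChar (R := F)
    rw [hc] at this
    exact_mod_cast this)
  obtain ⟨a, b, e⟩ := FiniteField.exists_root_sum_quadratic (f := (Polynomial.X : Polynomial F) ^ 2)
    (g := Polynomial.X ^ 2 - Polynomial.C c) (Polynomial.degree_X_pow 2)
    (Polynomial.degree_X_pow_sub_C (by norm_num) c) hodd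
  exact ⟨a, b, by simp at e; linear_combination e⟩

/-- Vectors in the plane of a member and an orthogonal triple. -/
theorem Base.circle (B : Base t M) (hp : (Fintype.card F).Prime) (hodd : Odd (Fintype.card F))
    (h11 : 11 ≤ Fintype.card F) (h4 : InM t M ![(2 : F)⁻¹, 2⁻¹, 2⁻¹, 2⁻¹, 0])
    (h0 : InM t M ![0, (2 : F)⁻¹, 2⁻¹, 2⁻¹, 2⁻¹]) {α β : F} (hαβ : α ^ 2 + 3 * β ^ 2 = 1) :
    InM t M ![α, β, β, β, 0] := by
  have h := B.fr
  have h2 := h.two
  have small : ∀ n : ℕ, 0 < n → n < Fintype.card F → (n : F) ≠ 0 := fun n h0' hlt =>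
    num_ne hp n fun hd => absurd (Nat.le_of_dvd h0' hd) (by omega)
  have h3 : (3 : F) ≠ 0 := by exact_mod_cast small 3 (by norm_num) (by omega)
  have h5 : (5 : F) ≠ 0 := by exact_mod_cast small 5 (by norm_num) (by omega)
  have h7 : (7 : F) ≠ 0 := by exact_mod_cast small 7 (by norm_num) (by omega)
  obtain ⟨a, b, hab⟩ := exists_sq_add_eq h2 (-3 : F)
  have cp : CPar (-3 : F) a b := ⟨h2, neg_ne_zero.2 h3, hab⟩
  set σ : M4 := vec t ![0, 1, 1, 1, 0] with hσ
  have hσσ : σ * σ = (3 : F) • 1 := by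
    rw [hσ, h.vec_sq]
    congr 1
    simp [dotProduct, Fin.sum_univ_five]
    norm_num
  have hσ0 : σ * t 0 = -((t 0 : M4) * σ) := h.anti_of_zero (by simp)
  have hσ4 : σ * t 4 = -((t 4 : M4) * σ) := h.anti_of_zero (by simp)
  let B' : QuaternionAlgebra.Basis M4 (-1 : F) (0 : F) (-3 : F) :=
    { i := (t 0 : M4) * t 4
      j := (t 0 : M4) * σ
      k := -((t 4 : M4) * σ)
      i_mul_i := by rw [h.mul_sq (by decide), neg_one_smul, zero_smul, add_zero]
      j_mul_j := by
        rw [mul_assoc, ← mul_assoc σ, hσ0, neg_mul, mul_assoc (t 0 : M4) σ, hσσ, mul_neg, h.sq_mul, neg_smul]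
      i_mul_j := by
        rw [mul_assoc, h.anti_mul (show (4 : Fin 5) ≠ 0 by decide), mul_neg, h.sq_mul]
      j_mul_i := by
        rw [mul_assoc, ← mul_assoc σ, hσ0, neg_mul, mul_assoc (t 0 : M4) σ, hσ4]
        simp only [mul_neg, neg_neg, h.sq_mul, zero_smul, zero_sub] }
  let Λ : SL(2, F) →* G4 := MonoidHom.toHomUnits
    { toFun := fun g => quatEmb cp B' (g : Matrix (Fin 2) (Fin 2) F)
      map_one' := by simp
      map_mul' := fun g g' => by simp }
  have hΛ : ∀ g : SL(2, F), (Λ g : M4) = quatEmb cp B' (g : Matrix (Fin 2) (Fin 2) F) := fun g => rfl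
  set G : Subgroup SL(2, F) := M.comap Λ with hG
  let A : SL(2, F) := H6.sl2 ((1 - b) / 2) (a / 2) (a / 2) ((1 + b) / 2)
    (by field_simp; linear_combination -hab)
  let C : SL(2, F) := H6.sl2 ((1 + a) / 2) (b / 2) (b / 2) ((1 - a) / 2)
    (by field_simp; linear_combination -hab)
  have hA : A ∈ G := by
    obtain ⟨u, hu, eu⟩ := h0
    have e : Λ A = t 4 * u := by
      apply Units.ext
      rw [hΛ, Units.val_mul, eu, quatEmb_eq cp B' (w := 2⁻¹) (x := 0) (y := 0) (z := -2⁻¹) (by
        ext u v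
        fin_cases u <;> fin_cases v <;> simp [A, H6.sl2] <;> field_simp <;> ring)]
      simp only [vec, Fin.sum_univ_five, B', hσ, mul_add, mul_smul_comm, h.sq]
      simp
      match_scalars <;> ring
    show Λ A ∈ M
    rw [e]
    exact mul_mem (B.t_mem 4) hu
  have hC : C ∈ G := by
    obtain ⟨u, hu, eu⟩ := h4
    have e : Λ C = t 0 * u := by
      apply Units.ext
      rw [hΛ, Units.val_mul, eu, quatEmb_eq cp B' (w := 2⁻¹) (x := 0) (y := 2⁻¹) (z := 0) (by
        ext u v
        fin_cases u <;> fin_cases v <;> simp [C, H6.sl2] <;> field_simp <;> ring)]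
      simp only [vec, Fin.sum_univ_five, B', hσ, mul_add, mul_smul_comm, h.sq]
      simp
      match_scalars <;> ring
    show Λ C ∈ M
    rw [e]
    exact mul_mem (B.t_mem 0) hu
  have hA3 : A * A * A = -1 := by
    have e : A * A = -A⁻¹ := by
      apply H6.sl2_ext <;>
        simp [A, H6.sl2_mul, H6.sl2_neg, H6.sl2_inv_00, H6.sl2_inv_01, H6.sl2_inv_10, H6.sl2_inv_11] <;>
        field_simp <;> first | linear_combination hab | linear_combination -hab | ring
    rw [e, neg_mul, inv_mul_cancel]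
  have htr : H6.tr (A * C) = 2⁻¹ := by
    simp [A, C, H6.tr, H6.sl2_mul]
    field_simp
    ring
  have htc : H6.tr (A * C * A⁻¹ * C⁻¹) = -(4 : F)⁻¹ := by
    simp [A, C, H6.tr, H6.sl2_mul, H6.sl2_inv_00, H6.sl2_inv_01, H6.sl2_inv_10, H6.sl2_inv_11]
    field_simp
    ring_nf
    have e4 : (a ^ 2 + b ^ 2) * (a ^ 2 + b ^ 2) = (-3) * (-3) := by rw [hab]
    grind
  have hbad : Bad (A * C) := by
    refine bad_of_tr ?_ ?_ ?_ ?_ ?_ <;> rw [htr]
    · exact inv_ne_zero h2
    · intro e; field_simp at e; exact h3 (by linear_combination -e)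
    · intro e; field_simp at e; exact h7 (by linear_combination -e)
    · intro e; field_simp at e; exact mul_ne_zero h3 h5 (by linear_combination -e)
    · intro e; field_simp at e; exact h5 (by linear_combination e)
  have h4' : (4 : F) ≠ 0 := h.four_ne
  have hneg : (-1 : SL(2, F)) ∈ G := by rw [← hA3]; exact mul_mem (mul_mem hA hA) hA
  have hGtop : G = ⊤ := by
    rcases small_or_large hp hodd hneg hA hC
      (by rw [pow_succ, pow_two, ← map_mul, ← map_mul, hA3, H6.π_neg, map_one]) (by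
        rw [htc]; intro e; field_simp at e; exact mul_ne_zero h3 h5 (by linear_combination -e)) (by
        rw [htc]; intro e; field_simp at e
        exact mul_ne_zero (mul_ne_zero h3 h3) h7 (by linear_combination -e)) with hs | ⟨-, hl⟩
    · exact absurd hbad (hs.not_bad (mul_mem hA hC))
    · exact hl.eq_top_of_bad (mul_mem hA hC) hbad
  let g : SL(2, F) := H6.sl2 (α + a * β) (b * β) (b * β) (α - a * β)
    (by linear_combination hαβ - β ^ 2 * hab)
  have hg : Λ g ∈ M := show g ∈ G from hGtop ▸ Subgroup.mem_top g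
  refine ⟨t 0 * Λ g, mul_mem (B.t_mem 0) hg, ?_⟩
  rw [Units.val_mul, hΛ, quatEmb_eq cp B' (w := α) (x := 0) (y := β) (z := 0) (by
    ext u v
    fin_cases u <;> fin_cases v <;> simp [g, H6.sl2])]
  simp only [vec, Fin.sum_univ_five, B', hσ, mul_add, mul_smul_comm, h.sq_mul, mul_one]
  simp
  match_scalars <;> ring

/-- With the element of order three all pairs lie in the subgroup. -/
theorem Base.pairs_eq_top (B : Base t M) (q : QPar a b) (hp : (Fintype.card F).Prime)
    (hodd : Odd (Fintype.card F)) (hom : om q ∈ kern (pairs B.fr q M)) : pairs B.fr q M = ⊤ := by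
  have h2 := q.two
  refine (B.loc q).eq_top hp hodd hom ?_
  set p := Fintype.card F with hpdef
  have h4 := B.half_four q hom
  have h0 := B.half_zero h4
  by_cases h3 : p = 3
  · exact Or.inl h3
  refine Or.inr ?_
  have hdet : ∀ w x y z : F, w * w + x * x + y * y + z * z = 1 →
      (w + a * y + b * z) * (w - a * y - b * z) - (x + b * y - a * z) * (-x + b * y - a * z) = 1 :=
    fun w x y z e => by linear_combination e + (-(y * y + z * z)) * q.eq
  by_cases h5 : p = 5
  · have five : (5 : F) = 0 := by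
      have e := Nat.cast_card_eq_zero F
      rw [← hpdef, h5] at e
      exact_mod_cast e
    have i2 : (2 : F)⁻¹ = 3 := by
      refine inv_eq_of_mul_eq_one_right ?_
      linear_combination five
    rw [i2] at h4 h0
    have hX : InM t M ![4, 2, 1, 1, 2] := by
      refine (B.refl h4 (B.flip 1 h0) ?_).congr (funext fun i => ?_)
      · simp [dotProduct, Fin.sum_univ_five]; linear_combination 7 * five
      · fin_cases i <;> simp [dotProduct, Fin.sum_univ_five, Function.update] <;> grind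
    have hU : InM t M ![3, 3, 0, 3, 3] := by
      refine (B.cyc (p := 4) (q := 2) (r := 0) (by decide) (by decide) (by decide) h4).congr (funext fun i => ?_)
      fin_cases i <;> simp
    have hV : InM t M ![3, 0, 4, 1, 0] := by
      refine (B.refl hU hX ?_).congr (funext fun i => ?_)
      · simp [dotProduct, Fin.sum_univ_five]; linear_combination 7 * five
      · fin_cases i <;> simp [dotProduct, Fin.sum_univ_five] <;> grind
    have e1 : (1 : F) * 1 + 3 * 3 + 0 * 0 + 1 * 1 = 1 := by linear_combination 2 * five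
    let g : SL(2, F) := ⟨!![1 + a * 0 + b * 1, 3 + b * 0 - a * 1; -3 + b * 0 - a * 1, 1 - a * 0 - b * 1], by
      rw [det_fin_two_of]; exact hdet 1 3 0 1 e1⟩
    refine ⟨g, B.proj_of_inM q hV (w := 1) (x := 3) (y := 0) (z := 1) rfl (funext fun i => ?_),
      Or.inl ⟨Or.inl h5, not_nrm_of_coords q (w := 1) (x := 3) (y := 0) (z := 1) rfl ?_ ?_⟩⟩
    · fin_cases i <;> simp <;> linear_combination five
    · intro e; exact one_ne_zero (α := F) (by linear_combination 2 * five - e)
    · intro e; exact one_ne_zero (α := F) (by linear_combination e)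
  by_cases h7 : p = 7
  · have seven : (7 : F) = 0 := by
      have e := Nat.cast_card_eq_zero F
      rw [← hpdef, h7] at e
      exact_mod_cast e
    have i2 : (2 : F)⁻¹ = 4 := by
      refine inv_eq_of_mul_eq_one_right ?_
      linear_combination seven
    rw [i2] at h4 h0
    have hX : InM t M ![6, 2, 2, 2, 3] := by
      refine (B.refl h4 h0 ?_).congr (funext fun i => ?_)
      · simp [dotProduct, Fin.sum_univ_five]; linear_combination 9 * seven
      · fin_cases i <;> simp [dotProduct, Fin.sum_univ_five] <;> grind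
    have hU : InM t M ![4, 0, 4, 4, 4] := by
      refine (B.cyc (p := 4) (q := 1) (r := 0) (by decide) (by decide) (by decide) h4).congr (funext fun i => ?_)
      fin_cases i <;> simp
    have hV : InM t M ![4, 5, 1, 1, 0] := by
      refine (B.refl hU hX ?_).congr (funext fun i => ?_)
      · simp [dotProduct, Fin.sum_univ_five]; linear_combination 9 * seven
      · fin_cases i <;> simp [dotProduct, Fin.sum_univ_five] <;> grind
    have e1 : (1 : F) * 1 + 4 * 4 + 5 * 5 + (-1) * (-1) = 1 := by linear_combination 6 * seven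
    let g : SL(2, F) := ⟨!![1 + a * 5 + b * (-1), 4 + b * 5 - a * (-1);
      -4 + b * 5 - a * (-1), 1 - a * 5 - b * (-1)], by rw [det_fin_two_of]; exact hdet 1 4 5 (-1) e1⟩
    refine ⟨g, B.proj_of_inM q hV (w := 1) (x := 4) (y := 5) (z := -1) rfl (funext fun i => ?_),
      Or.inl ⟨Or.inr h7, not_nrm_of_coords q (w := 1) (x := 4) (y := 5) (z := -1) rfl ?_ ?_⟩⟩
    · fin_cases i <;> simp
    · intro e; exact h2 (by linear_combination -e - seven)
    · intro e
      have h5' : (5 : F) ≠ 0 := by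
        exact_mod_cast num_ne hp 5 (by rw [← hpdef, h7]; norm_num)
      exact h5' (by linear_combination e - 2 * seven)
  have h11 : 11 ≤ p := by
    have := hp.two_le
    obtain ⟨k, hk⟩ := hodd
    by_contra hlt
    have hk' : k = 1 ∨ k = 2 ∨ k = 3 ∨ k = 4 := by omega
    rcases hk' with rfl | rfl | rfl | rfl
    · exact h3 hk
    · exact h5 hk
    · exact h7 hk
    · rw [hk] at hp; norm_num at hp
  obtain ⟨α, β, hαβ, hbad⟩ := exists_bad_circle hp h11
  have hv := B.circle hp hodd h11 h4 h0 hαβ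
  let g : SL(2, F) := ⟨!![β + a * β + b * (-β), α + b * β - a * (-β);
    -α + b * β - a * (-β), β - a * β - b * (-β)], by
      rw [det_fin_two_of]; exact hdet β α β (-β) (by linear_combination hαβ)⟩
  have hg := B.proj_of_inM q hv (g := g) (w := β) (x := α) (y := β) (z := -β) rfl (by simp)
  refine ⟨g * qi, mul_mem hg (kern_le (B.loc q).qi_mem_kern), Or.inr (hbad _ ?_)⟩
  have e01 : g 0 1 = α + b * β - a * (-β) := rfl
  have e10 : g 1 0 = -α + b * β - a * (-β) := rfl
  simp only [H6.tr, H6.sl2_mul, qi, H6.sl2_00, H6.sl2_01, H6.sl2_10, H6.sl2_11]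
  rw [e01, e10]
  ring

end Fintype

end Cfsg.Agent.H1.SpC6
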