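import Cfsg.Agent.H6.Applications
import Cfsg.Agent.H1.SmallIso
import Cfsg.Agent.H1.PSLSimple

/-!
Subgroups of `SL₂(p)` containing a commutator with general trace.
-/

set_option autoImplicit false

open Matrix MatrixGroups

namespace Cfsg.Agent.H1.SpC6

open Cfsg.Agent.H6 (π tr)

variable {F : Type*} [Field F]

/-- The image is tetrahedral or octahedral. -/
def Small (G : Subgroup SL(2, F)) : Prop :=
  Nonempty (G.map π ≃* alternatingGroup (Fin 4)) ∨ Nonempty (G.map π ≃* Equiv.Perm (Fin 4))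

/-- The image is icosahedral or everything. -/
def Large (G : Subgroup SL(2, F)) : Prop :=
  Nonempty (G.map π ≃* alternatingGroup (Fin 5)) ∨ G = ⊤

/-- No power up to the fifth is a sign. -/
def Bad (g : SL(2, F)) : Prop := ∀ k, 1 ≤ k → k ≤ 5 → π g ^ k ≠ 1

theorem perm_four_pow : ∀ g : Equiv.Perm (Fin 4), g ^ 2 = 1 ∨ g ^ 3 = 1 ∨ g ^ 4 = 1 := by
  decide +kernel

theorem alt_five_pow : ∀ g : alternatingGroup (Fin 5), g ^ 2 = 1 ∨ g ^ 3 = 1 ∨ g ^ 5 = 1 := by
  decide +kernel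

theorem Small.exists_hom {G : Subgroup SL(2, F)} (hG : Small G) :
    ∃ f : G.map π →* Equiv.Perm (Fin 4), Function.Injective f := by
  rcases hG with ⟨⟨e⟩⟩ | ⟨⟨e⟩⟩
  · exact ⟨(alternatingGroup (Fin 4)).subtype.comp e.toMonoidHom,
      (Subgroup.subtype_injective _).comp e.injective⟩
  · exact ⟨e.toMonoidHom, e.injective⟩

theorem Small.not_bad {G : Subgroup SL(2, F)} (hG : Small G) {g : SL(2, F)} (hg : g ∈ G) : ¬ Bad g := by
  intro hb
  obtain ⟨f, hf⟩ := hG.exists_hom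
  set x : G.map π := ⟨π g, Subgroup.mem_map_of_mem _ hg⟩
  rcases perm_four_pow (f x) with h | h | h <;>
  · rw [← map_pow, ← map_one f] at h
    exact hb _ (by norm_num) (by norm_num) (congrArg Subtype.val (hf h))

theorem Large.eq_top_of_bad {G : Subgroup SL(2, F)} (hG : Large G) {g : SL(2, F)} (hg : g ∈ G)
    (hb : Bad g) : G = ⊤ := by
  refine hG.resolve_left fun ⟨e⟩ => ?_
  set x : G.map π := ⟨π g, Subgroup.mem_map_of_mem _ hg⟩
  rcases alt_five_pow (e x) with h | h | h <;>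
  · rw [← map_pow, ← map_one e] at h
    exact hb _ (by norm_num) (by norm_num) (congrArg Subtype.val (e.injective h))

theorem eq_top_of_map_eq_top {G : Subgroup SL(2, F)} (hneg : (-1 : SL(2, F)) ∈ G) (h : G.map π = ⊤) :
    G = ⊤ := by
  refine eq_top_iff.2 fun g _ => ?_
  obtain ⟨k, hk, e⟩ := Subgroup.mem_map.1 (h ▸ Subgroup.mem_top (π g) : π g ∈ G.map π)
  rcases H6.π_eq_iff.1 e with rfl | e
  · exact hk
  · have := mul_mem hneg hk
    rwa [e, neg_one_mul, neg_neg] at this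

theorem sl2_pow_two (g : SL(2, F)) :
    ((g * g : SL(2, F)) : Matrix (Fin 2) (Fin 2) F) = tr g • (g : Matrix (Fin 2) (Fin 2) F) - 1 := by
  ext i j
  refine (H6.sl2_sq g i j).trans ?_
  rw [Matrix.sub_apply, Matrix.smul_apply, smul_eq_mul]
  rfl

/-- A trace avoiding the small values gives a bad element. -/
theorem bad_of_tr {g : SL(2, F)} (h0 : tr g ≠ 0) (h1 : tr g ^ 2 ≠ 1) (h2 : tr g ^ 2 ≠ 2)
    (h4 : tr g ^ 2 ≠ 4) (h5 : tr g ^ 4 - 3 * tr g ^ 2 + 1 ≠ 0) : Bad g := by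
  set t := tr g with ht
  set A : Matrix (Fin 2) (Fin 2) F := (g : Matrix (Fin 2) (Fin 2) F)
  have hsq : A * A = t • A - 1 := (Matrix.SpecialLinearGroup.coe_mul g g).symm.trans (sl2_pow_two g)
  have hns : ¬ H6.IsScal g := H6.not_isScal_of_ss (ht ▸ h4)
  have key : ∀ u v : F, u ≠ 0 → ∀ s : F, u • A - v • (1 : Matrix (Fin 2) (Fin 2) F) ≠ s • 1 := by
    intro u v hu s e
    have e01 := congrFun (congrFun e 0) 1
    have e10 := congrFun (congrFun e 1) 0
    have e00 := congrFun (congrFun e 0) 0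
    have e11 := congrFun (congrFun e 1) 1
    simp [A, hu] at e01 e10 e00 e11
    exact hns ⟨e01, e10, mul_left_cancel₀ hu (sub_left_inj.1 (e00.trans e11.symm))⟩
  have pw : ∀ k, π g ^ k = 1 → ∃ s : F, A ^ k = s • 1 := by
    intro k hk
    rw [← map_pow, H6.π_eq_one_iff] at hk
    have hpk := (Matrix.SpecialLinearGroup.coe_pow g k).symm
    rcases hk with e | e
    · exact ⟨1, hpk.trans ((congrArg _ e).trans (one_smul F _).symm)⟩
    · exact ⟨-1, hpk.trans ((congrArg _ e).trans (neg_one_smul F (1 : Matrix (Fin 2) (Fin 2) F)).symm)⟩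
  intro k hk hk' he
  obtain ⟨s, hs⟩ := pw k he
  have p2 : A ^ 2 = t • A - (1 : F) • (1 : Matrix (Fin 2) (Fin 2) F) := by rw [pow_two, hsq, one_smul]
  have p3 : A ^ 3 = (t ^ 2 - 1) • A - t • (1 : Matrix (Fin 2) (Fin 2) F) := by
    rw [pow_succ, p2, sub_mul, smul_mul_assoc, smul_mul_assoc, one_mul, hsq]; module
  have p4 : A ^ 4 = (t * (t ^ 2 - 2)) • A - (t ^ 2 - 1) • (1 : Matrix (Fin 2) (Fin 2) F) := by
    rw [pow_succ, p3, sub_mul, smul_mul_assoc, smul_mul_assoc, one_mul, hsq]; module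
  have p5 : A ^ 5 = (t ^ 4 - 3 * t ^ 2 + 1) • A - (t * (t ^ 2 - 2)) • (1 : Matrix (Fin 2) (Fin 2) F) := by
    rw [pow_succ, p4, sub_mul, smul_mul_assoc, smul_mul_assoc, one_mul, hsq]; module
  interval_cases k
  · exact key 1 0 one_ne_zero s (by rw [← hs, pow_one]; simp)
  · exact key _ _ h0 s (p2.symm.trans hs)
  · exact key _ _ (sub_ne_zero.2 h1) s (p3.symm.trans hs)
  · exact key _ _ (mul_ne_zero h0 (sub_ne_zero.2 h2)) s (p4.symm.trans hs)
  · exact key _ _ h5 s (p5.symm.trans hs)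

theorem tr_comm_of_upper {a b : SL(2, F)} (ha : a 1 0 = 0) (hb : b 1 0 = 0) :
    tr (a * b * a⁻¹ * b⁻¹) = 2 := by
  have da := H6.sl2_det a
  have db := H6.sl2_det b
  rw [ha, mul_zero, sub_zero] at da
  rw [hb, mul_zero, sub_zero] at db
  simp only [tr, H6.sl2_mul, H6.sl2_inv_00, H6.sl2_inv_01, H6.sl2_inv_10, H6.sl2_inv_11, ha, hb]
  linear_combination 2 * (b 0 0 * b 1 1) * da + 2 * db

theorem tr_sq (g : SL(2, F)) : tr (g * g) = tr g ^ 2 - 2 := by
  have e := congrArg Matrix.trace (sl2_pow_two g)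
  rw [trace_sub, trace_smul, trace_one, trace_fin_two, trace_fin_two, smul_eq_mul] at e
  simp only [tr] at e ⊢
  rw [e]
  simp
  ring

variable [Fintype F]

/-- A subgroup over a prime field with a commutator of general trace is small or large. -/
theorem small_or_large (hp : (Fintype.card F).Prime) (hodd : Odd (Fintype.card F))
    {G : Subgroup SL(2, F)} (hneg : (-1 : SL(2, F)) ∈ G) {a b : SL(2, F)} (ha : a ∈ G) (hb : b ∈ G)
    (ha3 : π a ^ 3 = 1) (h1 : tr (a * b * a⁻¹ * b⁻¹) ^ 2 ≠ 1) (h4 : tr (a * b * a⁻¹ * b⁻¹) ^ 2 ≠ 4) :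
    Small G ∨ (5 ≤ Fintype.card F ∧ Large G) := by
  classical
  set p := Fintype.card F with hpdef
  haveI := Fact.mk hp
  haveI : CharP F p := charP_of_card_eq_prime hpdef.symm
  obtain ⟨c₀, hc⟩ := H6.exists_outcome (p := p) (G.map π)
  obtain ⟨e⟩ := H6.cjEquiv_exists c₀ (G.map π)
  obtain ⟨d, rfl⟩ := H6.π_surjective c₀
  have hmem : ∀ {g}, g ∈ G → π (d * g * d⁻¹) ∈ H6.cj (π d) (G.map π) := fun hg => by
    rw [map_mul, map_mul, map_inv]
    exact ⟨_, Subgroup.mem_map_of_mem _ hg, rfl⟩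
  obtain ⟨a', ha'⟩ : ∃ x, x = d * a * d⁻¹ := ⟨_, rfl⟩
  obtain ⟨b', hb'⟩ : ∃ x, x = d * b * d⁻¹ := ⟨_, rfl⟩
  have hma : π a' ∈ H6.cj (π d) (G.map π) := ha' ▸ hmem ha
  have hmb : π b' ∈ H6.cj (π d) (G.map π) := hb' ▸ hmem hb
  have hab : tr (a' * b' * a'⁻¹ * b'⁻¹) = tr (a * b * a⁻¹ * b⁻¹) := by
    rw [show a' * b' * a'⁻¹ * b'⁻¹ = d * (a * b * a⁻¹ * b⁻¹) * d⁻¹ by rw [ha', hb']; group, H6.tr_conj]
  have hscal : ∀ g : SL(2, F), π g = 1 → tr g ^ 2 = 4 := fun g hg => by
    rcases H6.π_eq_one_iff.1 hg with rfl | rfl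
    · rw [H6.tr_one]; norm_num
    · rw [H6.tr_neg, H6.tr_one]; norm_num
  have hnc : π a' * π b' ≠ π b' * π a' := fun hcomm => h4 (by
    rw [← hab]
    refine hscal _ ?_
    rw [map_mul, map_mul, map_mul, hcomm, map_inv, map_inv]
    group)
  cases hc with
  | triv h =>
    have : Subsingleton (H6.cj (π d) (G.map π)) := (Nat.card_eq_one_iff_unique.1 h).1
    refine absurd ?_ hnc
    rw [show π a' = 1 from congrArg Subtype.val
      (Subsingleton.elim (⟨π a', hma⟩ : H6.cj (π d) (G.map π)) 1), one_mul, mul_one]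
  | dih h =>
    obtain ⟨g, ht, hle⟩ := h
    have ha'3 : π a' ^ 3 = 1 := by
      rw [ha', map_mul, map_mul, map_inv, conj_pow, ha3, mul_one, mul_inv_cancel]
    have hat : π a' ∈ H6.tor g := by
      by_contra hn
      obtain ⟨hsq, hne, -⟩ := H6.outside_torDih ht (hle hma) hn
      refine hne ?_
      rwa [pow_succ, pow_two, hsq, one_mul] at ha'3
    have := H6.tor_cyclic ht
    by_cases hbt : π b' ∈ H6.tor g
    · refine absurd ?_ hnc
      obtain ⟨z, hz⟩ := IsCyclic.exists_generator (α := H6.tor g)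
      obtain ⟨i, hi⟩ := hz ⟨_, hat⟩
      obtain ⟨j, hj⟩ := hz ⟨_, hbt⟩
      have hi' : (z : PSL(2, F)) ^ i = π a' := congrArg Subtype.val hi
      have hj' : (z : PSL(2, F)) ^ j = π b' := congrArg Subtype.val hj
      rw [← hi', ← hj']
      exact (Commute.refl _).zpow_zpow i j
    · exfalso
      obtain ⟨-, -, hinv⟩ := H6.outside_torDih ht (hle hmb) hbt
      have e2 : π (a' * b' * a'⁻¹ * b'⁻¹) = π (a' * a') := by
        rw [map_mul, map_mul, map_mul, map_mul, map_inv, map_inv, mul_assoc, mul_assoc, ← mul_assoc (π b'),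
          hinv _ (inv_mem hat), inv_inv]
      have hns : ¬ H6.IsScal a' := fun hs => hnc (by rw [H6.π_eq_one_iff_isScal.2 hs, one_mul, mul_one])
      have hta : tr a' ^ 2 = 1 := by
        by_contra hne
        have hA : ((a' ^ 3 : SL(2, F)) : Matrix (Fin 2) (Fin 2) F) =
            (tr a' ^ 2 - 1) • (a' : Matrix (Fin 2) (Fin 2) F) - tr a' • 1 := by
          have q2 := (Matrix.SpecialLinearGroup.coe_mul a' a').symm.trans (sl2_pow_two a')
          refine (Matrix.SpecialLinearGroup.coe_pow a' 3).trans ?_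
          rw [pow_succ, pow_two, q2, sub_mul, smul_mul_assoc, one_mul, q2]
          module
        rw [← map_pow, H6.π_eq_one_iff_isScal] at ha'3
        obtain ⟨e01, e10, e00⟩ := ha'3
        rw [hA] at e01 e10 e00
        simp [sub_ne_zero.2 hne] at e01 e10 e00
        exact hns ⟨e01, e10, e00⟩
      refine h1 ?_
      rw [← hab]
      rcases H6.π_eq_iff.1 e2 with e3 | e3 <;> rw [e3] <;>
        simp only [H6.tr_neg, tr_sq, hta] <;> ring
  | bor h =>
    exfalso
    obtain ⟨c₁, hd⟩ := h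
    obtain ⟨d', rfl⟩ := H6.π_surjective c₁
    have up : ∀ {g}, g ∈ G → (d' * (d * g * d⁻¹) * d'⁻¹ : SL(2, F)) 1 0 = 0 := fun {g} hg =>
      H6.mem_borel.1 (hd (by
        rw [map_mul π (d' * (d * g * d⁻¹)), map_mul π d', map_inv]
        exact ⟨_, hmem hg, rfl⟩))
    have := tr_comm_of_upper (up ha) (up hb)
    rw [← ha', ← hb', show d' * a' * d'⁻¹ * (d' * b' * d'⁻¹) * (d' * a' * d'⁻¹)⁻¹ * (d' * b' * d'⁻¹)⁻¹ =
      d' * (a' * b' * a'⁻¹ * b'⁻¹) * d'⁻¹ by group, H6.tr_conj, hab] at this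
    exact h4 (by rw [this]; norm_num)
  | a4 _ h => exact Or.inl (Or.inl (h.map e.trans))
  | s4 _ h _ => exact Or.inl (Or.inr (h.map e.trans))
  | a5 hcard h _ =>
    refine Or.inr ⟨?_, Or.inl (h.map e.trans)⟩
    by_contra hlt
    have hp3 : p = 3 := by
      have := hp.two_le
      obtain ⟨k, hk⟩ := hodd
      omega
    have h12 := Subgroup.card_le_card_group (H6.cj (π d) (G.map π))
    rw [hcard, H6.card_psl2 (q := p) rfl, hp3] at h12
    norm_num at h12
  | gen h =>
    obtain ⟨r, k, hG⟩ := h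
    obtain ⟨K, hKr, -, hK⟩ := H6.gen_structure hG
    have hKtop : ∀ x : F, x ∈ K := by
      intro x
      obtain ⟨y, rfl⟩ := (ZMod.ringEquiv F (rfl : Fintype.card F = p)).surjective x
      rw [← ZMod.natCast_zmod_val y, map_natCast]
      exact natCast_mem K _
    rcases hK with ⟨-, ⟨f⟩⟩ | ⟨-, -, hsq⟩
    · haveI := Fintype.ofFinite K
      have hcK : Fintype.card K = p :=
        Fintype.card_congr (Equiv.subtypeUnivEquiv hKtop)
      have hcard : Nat.card (G.map π) = Nat.card PSL(2, F) := by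
        rw [Nat.card_congr e.toEquiv, Nat.card_congr f.toEquiv, H6.card_psl2 hcK, H6.card_psl2 rfl]
      have htop : G.map π = ⊤ := Subgroup.eq_top_of_card_eq _ hcard
      by_cases h5 : 5 ≤ p
      · exact Or.inr ⟨h5, Or.inr (eq_top_of_map_eq_top hneg htop)⟩
      · have hp3 : Fintype.card F = 3 := by
          have := hp.two_le
          obtain ⟨j, hj⟩ := hodd
          omega
        exact Or.inl (Or.inl ((H1.PSL_two_three_equiv_alternating hp3).map fun g =>
          ((MulEquiv.subgroupCongr htop).trans Subgroup.topEquiv).trans g))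
    · exfalso
      have hc2 : ringChar F ≠ 2 := fun hc => by
        have := FiniteField.even_card_of_char_two hc
        obtain ⟨j, hj⟩ := hodd
        omega
      obtain ⟨x, hx⟩ := FiniteField.exists_nonsquare hc2
      exact hx (hsq ⟨x, hKtop x⟩)

/-- In small characteristic an icosahedral image is everything. -/
theorem Large.eq_top_of_le_seven {G : Subgroup SL(2, F)} (hG : Large G) (hneg : (-1 : SL(2, F)) ∈ G)
    (hp : Fintype.card F = 5 ∨ Fintype.card F = 7) : G = ⊤ := by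
  refine hG.elim (fun ⟨e⟩ => ?_) id
  have h60 : Nat.card (G.map π) = 60 := by
    rw [Nat.card_congr e.toEquiv, nat_card_alternatingGroup]
    norm_num [Nat.factorial]
  have hdvd := Subgroup.card_subgroup_dvd_card (G.map π)
  rcases hp with hp | hp
  · refine eq_top_of_map_eq_top hneg (Subgroup.eq_top_of_card_eq _ ?_)
    rw [h60, H6.card_psl2 hp]
    norm_num
  · rw [h60, H6.card_psl2 hp] at hdvd
    norm_num at hdvd

/-- A normalised subgroup meeting a large one off the signs is all of it. -/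
theorem Large.eq_of_normal {G K : Subgroup SL(2, F)} (hG : Large G) (h5 : 5 ≤ Fintype.card F) (hle : K ≤ G)
    (hneg : (-1 : SL(2, F)) ∈ K) (hn : ∀ g ∈ G, ∀ k ∈ K, g * k * g⁻¹ ∈ K) {k : SL(2, F)} (hk : k ∈ K)
    (hk1 : π k ≠ 1) : K = G := by
  have hsimple : IsSimpleGroup (G.map π) := by
    rcases hG with ⟨⟨e⟩⟩ | rfl
    · haveI := alternatingGroup.isSimpleGroup (α := Fin 5) (by simp)
      exact MulEquiv.isSimpleGroup e
    · have htop : (⊤ : Subgroup SL(2, F)).map π = ⊤ := Subgroup.map_top_of_surjective _ H6.π_surjective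
      haveI : IsSimpleGroup PSL(2, F) :=
        ProjectiveSpecialLinearGroup.rank_two_simple (by rw [Nat.card_eq_fintype_card]; omega)
      exact MulEquiv.isSimpleGroup ((MulEquiv.subgroupCongr htop).trans Subgroup.topEquiv)
  haveI hnorm : ((K.map π).subgroupOf (G.map π)).Normal := ⟨fun n hn' g => by
    obtain ⟨k', hk', e1⟩ := hn'
    obtain ⟨g', hg', e2⟩ := g.2
    refine ⟨g' * k' * g'⁻¹, hn g' hg' k' hk', ?_⟩
    rw [map_mul, map_mul, map_inv]
    simp only [Subgroup.coe_subtype] at e1 ⊢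
    rw [e1, e2]
    rfl⟩
  rcases hsimple.eq_bot_or_eq_top_of_normal _ hnorm with h | h
  · refine absurd ?_ hk1
    have hm : (⟨π k, Subgroup.mem_map_of_mem _ (hle hk)⟩ : G.map π) ∈ (K.map π).subgroupOf (G.map π) :=
      Subgroup.mem_subgroupOf.2 (Subgroup.mem_map_of_mem _ hk)
    rw [h, Subgroup.mem_bot] at hm
    exact congrArg Subtype.val hm
  · refine le_antisymm hle fun g hg => ?_
    have hm : (⟨π g, Subgroup.mem_map_of_mem _ hg⟩ : G.map π) ∈ (K.map π).subgroupOf (G.map π) := by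
      rw [h]; exact Subgroup.mem_top _
    obtain ⟨k', hk', e⟩ := Subgroup.mem_subgroupOf.1 hm
    rcases H6.π_eq_iff.1 (show π k' = π g from e) with rfl | e'
    · exact hk'
    · have := mul_mem hneg hk'
      rwa [e', neg_one_mul, neg_neg] at this

end Cfsg.Agent.H1.SpC6
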