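import Cfsg.Agent.H66.FourNormalizer
import Cfsg.Agent.H98.MaximalSp
import Cfsg.Agent.H2.Form

/-!
Five pairwise anticommuting symplectic involutions with product one in dimension four: their span is
the space of self-adjoint matrices of trace zero.
-/

set_option autoImplicit false

namespace Cfsg.Agent.H1.SpC6

open Matrix
open Cfsg.Agent.H66.Minus (IsFrame)

variable {F : Type*} [Field F]

local notation "M4" => Matrix (Fin 2 ⊕ Fin 2) (Fin 2 ⊕ Fin 2) F
local notation "G4" => GL (Fin 2 ⊕ Fin 2) F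

/-- The adjoint with respect to the standard alternating form. -/
def adj (A : M4) : M4 := -(Matrix.J (Fin 2) F * Aᵀ * Matrix.J (Fin 2) F)

theorem adj_add (A B : M4) : adj (A + B) = adj A + adj B := by
  simp only [adj, transpose_add, mul_add, add_mul, neg_add]

theorem adj_smul (a : F) (A : M4) : adj (a • A) = a • adj A := by
  simp only [adj, transpose_smul, mul_smul_comm, smul_mul_assoc, smul_neg]

theorem adj_zero : adj (0 : M4) = 0 := by simp [adj]

theorem adj_neg (A : M4) : adj (-A) = -adj A := by simp [adj]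

theorem adj_sub (A B : M4) : adj (A - B) = adj A - adj B := by
  rw [sub_eq_add_neg, adj_add, adj_neg, ← sub_eq_add_neg]

theorem adj_one : adj (1 : M4) = 1 := by simp [adj, Matrix.J_squared]

theorem adj_mul (A B : M4) : adj (A * B) = adj B * adj A := by
  simp only [adj, transpose_mul, neg_mul_neg, mul_assoc]
  rw [← mul_assoc (Matrix.J (Fin 2) F) (Matrix.J (Fin 2) F), Matrix.J_squared]
  simp [mul_assoc]

theorem adj_sum {α : Type*} (s : Finset α) (f : α → M4) :
    adj (∑ i ∈ s, f i) = ∑ i ∈ s, adj (f i) :=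
  map_sum ({ toFun := adj, map_zero' := adj_zero, map_add' := adj_add } : M4 →+ M4) f s

/-- Symplectic matrices are those inverted by the adjoint. -/
theorem mem_spGL_iff {g : G4} : g ∈ Cfsg.spGL 2 F ↔ adj (g : M4) * g = 1 := by
  rw [Cfsg.Agent.H98.mem_spGL]
  constructor
  · intro h
    have h' := SymplecticGroup.mem_iff'.1 (H2.mem_symplecticGroup_iff.2 (by simpa only [H2.sympBilin_apply] using h))
    rw [adj, neg_mul, mul_assoc, mul_assoc, ← mul_assoc (g : M4)ᵀ, h', Matrix.J_squared, neg_neg]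
  · intro h
    simp only [H2.sympBilin_apply]
    refine H2.mem_symplecticGroup_iff.1 (SymplecticGroup.mem_iff'.2 ?_)
    have e := congrArg (fun A => Matrix.J (Fin 2) F * A) h
    simp only [adj, neg_mul, mul_neg, mul_one] at e
    rw [show Matrix.J (Fin 2) F * (Matrix.J (Fin 2) F * (g : M4)ᵀ * Matrix.J (Fin 2) F * g) =
      -((g : M4)ᵀ * Matrix.J (Fin 2) F * g) by
      rw [mul_assoc (Matrix.J (Fin 2) F), mul_assoc (Matrix.J (Fin 2) F), ← mul_assoc,
        Matrix.J_squared, neg_one_mul], neg_neg] at e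
    exact e

theorem adj_mul_self {g : G4} (hg : g ∈ Cfsg.spGL 2 F) : adj (g : M4) = (g⁻¹ : G4) := by
  have h := mem_spGL_iff.1 hg
  calc adj (g : M4) = adj (g : M4) * g * (g⁻¹ : G4) := by rw [mul_assoc, Units.mul_inv, mul_one]
    _ = _ := by rw [h, one_mul]

theorem neg_mem_spGL {g : G4} (hg : g ∈ Cfsg.spGL 2 F) : -g ∈ Cfsg.spGL 2 F := by
  rw [mem_spGL_iff] at hg ⊢
  rw [Units.val_neg, adj_neg, neg_mul_neg, hg]

/-- Five anticommuting symplectic involutions with product one. -/
structure Fr (t : Fin 5 → G4) : Prop where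
  two : (2 : F) ≠ 0
  frame : IsFrame (fun i => (t i : M4))
  sp : ∀ i, t i ∈ Cfsg.spGL 2 F
  prod : (t 0 : M4) * t 1 * t 2 * t 3 * t 4 = 1

variable {t : Fin 5 → GL (Fin 2 ⊕ Fin 2) F}

/-- The combination of the frame with given coefficients. -/
def vec (t : Fin 5 → G4) (v : Fin 5 → F) : M4 := ∑ i, v i • (t i : M4)

/-- The coefficient along a member of the frame. -/
def coord (t : Fin 5 → G4) (X : M4) : Fin 5 → F := fun i => (4 : F)⁻¹ * (X * (t i : M4)).trace

theorem Fr.sq (h : Fr t) (i : Fin 5) : (t i : M4) * t i = 1 := h.frame.sq i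

theorem Fr.anti (h : Fr t) {i j : Fin 5} (hij : i ≠ j) : (t i : M4) * t j = -((t j : M4) * t i) :=
  h.frame.anti i j hij

theorem Fr.four_ne (h : Fr t) : (4 : F) ≠ 0 := by
  rw [show (4 : F) = 2 * 2 by norm_num]; exact mul_ne_zero h.two h.two

theorem Fr.adj_t (h : Fr t) (i : Fin 5) : adj (t i : M4) = t i := by
  rw [adj_mul_self (h.sp i)]
  exact Units.inv_eq_of_mul_eq_one_right (h.sq i)

theorem Fr.sq' (h : Fr t) (i : Fin 5) : t i * t i = 1 := Units.ext (h.sq i)

theorem Fr.inv_t (h : Fr t) (i : Fin 5) : (t i)⁻¹ = t i := inv_eq_of_mul_eq_one_right (h.sq' i)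

theorem Fr.sq_mul (h : Fr t) (i : Fin 5) (A : M4) : (t i : M4) * ((t i : M4) * A) = A := by
  rw [← mul_assoc, h.sq, one_mul]

theorem Fr.anti_mul (h : Fr t) {i j : Fin 5} (hij : i ≠ j) (A : M4) :
    (t i : M4) * ((t j : M4) * A) = -((t j : M4) * ((t i : M4) * A)) := by
  rw [← mul_assoc, h.anti hij, neg_mul, mul_assoc]

theorem Fr.trace_t (h : Fr t) (i : Fin 5) : (t i : M4).trace = 0 := by
  obtain ⟨j, hj⟩ := exists_ne i
  have e : ((t i : M4) * t j * t j).trace = -((t i : M4) * t j * t j).trace := by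
    conv_lhs => rw [trace_mul_comm, h.anti hj.symm, mul_neg, trace_neg, ← mul_assoc, h.sq, one_mul]
    rw [mul_assoc, h.sq, mul_one]
  rw [mul_assoc, h.sq, mul_one] at e
  have : (2 : F) * (t i : M4).trace = 0 := by linear_combination e
  exact (mul_eq_zero.1 this).resolve_left h.two

theorem Fr.coord_vec (h : Fr t) (v : Fin 5 → F) : coord t (vec t v) = v := by
  funext i
  rw [coord, vec, Finset.sum_mul, trace_sum, Finset.sum_eq_single i]
  · rw [smul_mul_assoc, h.sq, trace_smul, trace_one, smul_eq_mul]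
    have := h.four_ne
    simp only [Fintype.card_sum, Fintype.card_fin]
    push_cast
    field_simp
  · intro j _ hj
    rw [smul_mul_assoc, trace_smul, h.frame.trace_mul h.two hj, smul_zero]
  · intro hi
    exact absurd (Finset.mem_univ i) hi

theorem Fr.vec_inj (h : Fr t) {v w : Fin 5 → F} (e : vec t v = vec t w) : v = w := by
  rw [← h.coord_vec v, e, h.coord_vec]

theorem vec_single (i : Fin 5) (a : F) : vec t (Pi.single i a) = a • (t i : M4) := by
  rw [vec, Finset.sum_eq_single i]
  · rw [Pi.single_eq_same]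
  · intro j _ hj; rw [Pi.single_eq_of_ne hj, zero_smul]
  · intro hi; exact absurd (Finset.mem_univ i) hi

theorem vec_add (v w : Fin 5 → F) : vec t (v + w) = vec t v + vec t w := by
  simp only [vec, Pi.add_apply, add_smul, Finset.sum_add_distrib]

theorem vec_smul (a : F) (v : Fin 5 → F) : vec t (a • v) = a • vec t v := by
  simp only [vec, Pi.smul_apply, smul_eq_mul, mul_smul, Finset.smul_sum]

theorem vec_neg (v : Fin 5 → F) : vec t (-v) = -vec t v := by
  rw [← neg_one_smul F, vec_smul, neg_one_smul]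

theorem vec_zero : vec t (0 : Fin 5 → F) = 0 := by simp [vec]

/-- Products of two combinations of the frame symmetrise to their inner product. -/
theorem Fr.vec_mul_add (h : Fr t) (v w : Fin 5 → F) :
    vec t v * vec t w + vec t w * vec t v = (2 * (v ⬝ᵥ w)) • (1 : M4) := by
  have e1 : vec t v * vec t w = ∑ i, ∑ j, (v i * w j) • ((t i : M4) * t j) := by
    rw [vec, vec, Finset.sum_mul_sum]
    simp only [smul_mul_smul_comm]
  have e2 : vec t w * vec t v = ∑ i, ∑ j, (v i * w j) • ((t j : M4) * t i) := by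
    rw [vec, vec, Finset.sum_mul_sum, Finset.sum_comm]
    simp only [smul_mul_smul_comm, mul_comm (w _) (v _)]
  rw [e1, e2, ← Finset.sum_add_distrib, dotProduct, Finset.mul_sum, Finset.sum_smul]
  refine Finset.sum_congr rfl fun i _ => ?_
  rw [← Finset.sum_add_distrib, Finset.sum_eq_single i]
  · rw [h.sq, ← add_smul, two_mul]
  · intro j _ hj
    rw [h.anti hj, smul_neg]
    abel
  · intro hi
    exact absurd (Finset.mem_univ i) hi

theorem Fr.vec_sq (h : Fr t) (v : Fin 5 → F) : vec t v * vec t v = (v ⬝ᵥ v) • (1 : M4) := by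
  have e := h.vec_mul_add v v
  rw [← two_smul F, mul_smul] at e
  exact smul_right_injective _ h.two e

theorem one_smul_inj {a b : F} (e : a • (1 : M4) = b • 1) : a = b :=
  smul_left_injective F (one_ne_zero (α := M4)) e

theorem Fr.adj_vec (h : Fr t) (v : Fin 5 → F) : adj (vec t v) = vec t v := by
  simp only [vec, adj_sum, adj_smul, h.adj_t]

theorem Fr.trace_vec (h : Fr t) (v : Fin 5 → F) : (vec t v).trace = 0 := by
  simp [vec, trace_sum, trace_smul, h.trace_t]

/-- Conjugation of a combination by a member of the frame. -/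
theorem Fr.t_vec_t (h : Fr t) (k : Fin 5) (v : Fin 5 → F) :
    (t k : M4) * vec t v * t k = vec t (fun i => if i = k then v i else -v i) := by
  simp only [vec, Finset.mul_sum, Finset.sum_mul, mul_smul_comm, smul_mul_assoc]
  refine Finset.sum_congr rfl fun i _ => ?_
  split_ifs with hi
  · subst hi; rw [h.sq, one_mul]
  · rw [h.anti (Ne.symm hi), neg_mul, mul_assoc, h.sq, mul_one, smul_neg, neg_smul]

/-- The monomials in the first four members. -/
def mono (t : Fin 5 → G4) (f : Fin 4 → Fin 2) : M4 :=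
  (t 0 : M4) ^ (f 0 : ℕ) * (t 1 : M4) ^ (f 1 : ℕ) * (t 2 : M4) ^ (f 2 : ℕ) * (t 3 : M4) ^ (f 3 : ℕ)

theorem Fr.exists_sum (h : Fr t) (A : M4) : ∃ c : (Fin 4 → Fin 2) → F, A = ∑ f, c f • mono t f := by
  let e : M4 ≃ₐ[F] Matrix (Fin 4) (Fin 4) F := Matrix.reindexAlgEquiv F F (finSumFinEquiv (m := 2) (n := 2))
  have hf : IsFrame fun i => e (t i : M4) :=
    ⟨fun i => by rw [← map_mul, h.sq, map_one],
      fun i j hij => by rw [← map_mul, ← map_mul, ← map_neg, h.anti hij]⟩
  obtain ⟨c, hc⟩ := H66.Four.exists_mono_sum h.two hf (e A)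
  refine ⟨c, e.injective ?_⟩
  rw [hc, map_sum]
  refine Finset.sum_congr rfl fun f _ => ?_
  simp only [map_smul, mono, H66.Four.mono, map_mul, map_pow]

/-- Four anticommuting involutions in a row. -/
theorem Fr.prod_four (h : Fr t) : (t 0 : M4) * ((t 1 : M4) * ((t 2 : M4) * t 3)) = t 4 := by
  have e := congrArg (fun A => A * (t 4 : M4)) h.prod
  simp only [one_mul, mul_assoc, h.sq, mul_one] at e
  exact e

theorem Fr.sym_mono (h : Fr t) (f : Fin 4 → Fin 2) :
    ∃ (c : F) (v : Fin 5 → F), mono t f + adj (mono t f) = c • (1 : M4) + vec t v := by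
  have p2 : ∀ {a b : Fin 5}, a ≠ b →
      (t a : M4) * (t b : M4) + adj ((t a : M4) * (t b : M4)) = (0 : M4) := fun {a b} hab => by
    rw [adj_mul, h.adj_t, h.adj_t, h.anti hab, neg_add_cancel]
  have p3 : ∀ {a b c : Fin 5}, a ≠ b → a ≠ c → b ≠ c →
      (t a : M4) * (t b : M4) * (t c : M4) + adj ((t a : M4) * (t b : M4) * (t c : M4)) = (0 : M4) := fun {a b c} hab hac hbc => by
    rw [adj_mul, adj_mul, h.adj_t, h.adj_t, h.adj_t, h.anti hab.symm, mul_neg, ← mul_assoc,
      h.anti hac.symm, neg_mul, neg_neg, mul_assoc, mul_assoc (t a : M4) (t c : M4), h.anti hbc.symm, mul_neg,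
      add_neg_cancel]
  have p4 : adj ((t 4 : M4)) = t 4 := h.adj_t 4
  rw [mono]
  generalize f 0 = a
  generalize f 1 = b
  generalize f 2 = c
  generalize f 3 = d
  have z2 : ∀ {X : M4}, X + adj X = 0 → ∃ (c : F) (v : Fin 5 → F), X + adj X = c • (1 : M4) + vec t v :=
    fun hX => ⟨0, 0, by rw [vec_zero, zero_smul, add_zero, hX]⟩
  have z1 : ∀ i, ∃ (c : F) (v : Fin 5 → F), (t i : M4) + adj (t i : M4) = c • (1 : M4) + vec t v :=
    fun i => ⟨0, Pi.single i 2, by rw [h.adj_t, vec_single, zero_smul, zero_add, two_smul]⟩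
  fin_cases a <;> fin_cases b <;> fin_cases c <;> fin_cases d <;>
    simp only [Fin.val_zero, Fin.val_one, Fin.zero_eta, Fin.mk_one, pow_zero, pow_one, one_mul, mul_one]
  · exact ⟨2, 0, by rw [vec_zero, add_zero, adj_one, two_smul]⟩
  · exact z1 3
  · exact z1 2
  · exact z2 (p2 (a := 2) (b := 3) (by decide))
  · exact z1 1
  · exact z2 (p2 (a := 1) (b := 3) (by decide))
  · exact z2 (p2 (a := 1) (b := 2) (by decide))
  · exact z2 (p3 (a := 1) (b := 2) (c := 3) (by decide) (by decide) (by decide))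
  · exact z1 0
  · exact z2 (p2 (a := 0) (b := 3) (by decide))
  · exact z2 (p2 (a := 0) (b := 2) (by decide))
  · exact z2 (p3 (a := 0) (b := 2) (c := 3) (by decide) (by decide) (by decide))
  · exact z2 (p2 (a := 0) (b := 1) (by decide))
  · exact z2 (p3 (a := 0) (b := 1) (c := 3) (by decide) (by decide) (by decide))
  · exact z2 (p3 (a := 0) (b := 1) (c := 2) (by decide) (by decide) (by decide))
  · rw [show (t 0 : M4) * t 1 * t 2 * t 3 = t 4 by simp only [mul_assoc, h.prod_four]]
    exact z1 4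

/-- Self-adjoint matrices of trace zero lie in the span of the frame. -/
theorem Fr.exists_vec (h : Fr t) {X : M4} (hX : adj X = X) (htr : X.trace = 0) :
    ∃ v, X = vec t v := by
  obtain ⟨c, hc⟩ := h.exists_sum X
  choose a v hav using h.sym_mono
  have e : (2 : F) • X = (∑ f, c f * a f) • (1 : M4) + vec t (∑ f, c f • v f) := by
    calc (2 : F) • X = X + adj X := by rw [hX, two_smul]
      _ = ∑ f, c f • (mono t f + adj (mono t f)) := by
        conv_lhs => rw [hc]
        simp only [adj_sum, adj_smul, smul_add, Finset.sum_add_distrib]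
      _ = _ := by
        simp only [hav, smul_add, smul_smul, Finset.sum_add_distrib, Finset.sum_smul]
        congr 1
        simp only [vec, Finset.sum_apply, Pi.smul_apply, smul_eq_mul, Finset.sum_smul, Finset.smul_sum,
          mul_smul]
        rw [Finset.sum_comm]
  have ht := congrArg Matrix.trace e
  rw [trace_smul, htr, trace_add, trace_smul, trace_one, h.trace_vec, smul_zero, add_zero,
    smul_eq_mul] at ht
  simp only [Fintype.card_sum, Fintype.card_fin] at ht
  push_cast at ht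
  have h0 : ∑ f, c f * a f = 0 :=
    (mul_eq_zero.1 ht.symm).resolve_right h.four_ne
  refine ⟨(2 : F)⁻¹ • ∑ f, c f • v f, ?_⟩
  rw [vec_smul, ← zero_add (vec t _), ← zero_smul F (1 : M4), ← h0, ← e, smul_smul,
    inv_mul_cancel₀ h.two, one_smul]

/-- The coordinates of the conjugate of a member of the frame. -/
def vv (t : Fin 5 → G4) (g : G4) (i : Fin 5) : Fin 5 → F := coord t ((g * t i * g⁻¹ : G4) : M4)

theorem Fr.conj_vec (h : Fr t) {g : G4} (hg : g ∈ Cfsg.spGL 2 F) (v : Fin 5 → F) :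
    ∃ w, (g : M4) * vec t v * (g⁻¹ : G4) = vec t w := by
  refine h.exists_vec ?_ ?_
  · rw [adj_mul, adj_mul, h.adj_vec, adj_mul_self hg, adj_mul_self (inv_mem hg), inv_inv, mul_assoc]
  · rw [trace_mul_comm, ← mul_assoc, Units.inv_mul, one_mul, h.trace_vec]

theorem Fr.conj_t (h : Fr t) {g : G4} (hg : g ∈ Cfsg.spGL 2 F) (i : Fin 5) :
    ((g * t i * g⁻¹ : G4) : M4) = vec t (vv t g i) := by
  obtain ⟨w, hw⟩ := h.conj_vec hg (Pi.single i 1)
  rw [vec_single, one_smul] at hw
  rw [vv, Units.val_mul, Units.val_mul, hw, h.coord_vec]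

theorem Fr.vv_dot (h : Fr t) {g : G4} (hg : g ∈ Cfsg.spGL 2 F) (i j : Fin 5) :
    vv t g i ⬝ᵥ vv t g j = if i = j then 1 else 0 := by
  have e := h.vec_mul_add (vv t g i) (vv t g j)
  rw [← h.conj_t hg, ← h.conj_t hg, ← Units.val_mul, ← Units.val_mul,
    show g * t i * g⁻¹ * (g * t j * g⁻¹) = g * (t i * t j) * g⁻¹ by group,
    show g * t j * g⁻¹ * (g * t i * g⁻¹) = g * (t j * t i) * g⁻¹ by group,
    Units.val_mul, Units.val_mul, Units.val_mul, Units.val_mul, Units.val_mul, Units.val_mul,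
    ← add_mul, ← mul_add] at e
  split_ifs with hij
  · subst hij
    rw [h.sq, ← two_smul F, mul_smul_comm, smul_mul_assoc, mul_one, Units.mul_inv] at e
    exact mul_left_cancel₀ h.two ((mul_one _).trans (one_smul_inj e)).symm
  · rw [h.anti hij, neg_add_cancel, mul_zero, zero_mul, ← zero_smul F (1 : M4)] at e
    exact (mul_eq_zero.1 (one_smul_inj e).symm).resolve_left h.two

/-- A combination commuting or anticommuting with a member of the frame. -/
theorem Fr.commute_t (h : Fr t) {v : Fin 5 → F} {k : Fin 5} :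
    ((t k : M4) * vec t v = vec t v * t k → ∀ i, i ≠ k → v i = 0) ∧
      ((t k : M4) * vec t v = -(vec t v * t k) → v k = 0) := by
  refine ⟨fun e i hi => ?_, fun e => ?_⟩
  · have e' := h.t_vec_t k v
    rw [e, mul_assoc, h.sq, mul_one] at e'
    have hv := congrFun (h.vec_inj e') i
    rw [if_neg hi] at hv
    exact (mul_eq_zero.1 (show (2 : F) * v i = 0 by linear_combination hv)).resolve_left h.two
  · have e' := h.t_vec_t k v
    rw [e, neg_mul, mul_assoc, h.sq, mul_one, ← vec_neg] at e'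
    have hv := congrFun (h.vec_inj e') k
    rw [if_pos rfl, Pi.neg_apply] at hv
    exact (mul_eq_zero.1 (show (2 : F) * v k = 0 by linear_combination -hv)).resolve_left h.two

theorem Fr.anti_of_zero (h : Fr t) {v : Fin 5 → F} {k : Fin 5} (hv : v k = 0) :
    vec t v * t k = -((t k : M4) * vec t v) := by
  have e := h.vec_mul_add v (Pi.single k 1)
  rw [vec_single, one_smul, dotProduct_single, hv, zero_mul, mul_zero, zero_smul] at e
  exact add_eq_zero_iff_eq_neg.1 e

/-- The support of a coefficient vector. -/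
noncomputable def supp (v : Fin 5 → F) : Finset (Fin 5) :=
  letI := Classical.decEq F
  Finset.univ.filter fun i => v i ≠ 0

theorem mem_supp {v : Fin 5 → F} {i : Fin 5} : i ∈ supp v ↔ v i ≠ 0 := by
  simp [supp]

theorem supp_nonempty {v : Fin 5 → F} (hv : v ⬝ᵥ v = 1) : (supp v).Nonempty := by
  by_contra hne
  rw [Finset.not_nonempty_iff_eq_empty] at hne
  have h0 : ∀ i, v i = 0 := fun i => by
    by_contra hi
    exact Finset.notMem_empty i (hne ▸ mem_supp.2 hi)
  simp [dotProduct, h0] at hv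

theorem eq_single_of_supp {v : Fin 5 → F} (hv : v ⬝ᵥ v = 1) {i : Fin 5} (hs : ∀ j, j ≠ i → v j = 0) :
    v = Pi.single i 1 ∨ v = Pi.single i (-1) := by
  have hi : v i * v i = 1 := by
    rw [dotProduct, Finset.sum_eq_single i (fun j _ hj => by rw [hs j hj, zero_mul])
      (fun h => absurd (Finset.mem_univ i) h)] at hv
    exact hv
  have e : v = Pi.single i (v i) := funext fun j => by
    rcases eq_or_ne j i with rfl | hj
    · rw [Pi.single_eq_same]
    · rw [Pi.single_eq_of_ne hj, hs j hj]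
  rcases mul_self_eq_one_iff.1 hi with h1 | h1 <;> rw [e, h1] <;> simp

/-- The element permutes the frame up to signs. -/
def MonoAct (t : Fin 5 → G4) (g : G4) : Prop :=
  ∀ i, ∃ j, g * t i * g⁻¹ = t j ∨ g * t i * g⁻¹ = -t j

theorem eq_or_neg_of_vec {i : Fin 5} {v : Fin 5 → F} {g : G4} (hg : (g : M4) = vec t v)
    (hv : v = Pi.single i 1 ∨ v = Pi.single i (-1)) : g = t i ∨ g = -t i := by
  rcases hv with rfl | rfl
  · left; apply Units.ext; rw [hg, vec_single, one_smul]
  · right; apply Units.ext; rw [hg, vec_single, Units.val_neg, neg_one_smul]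

theorem Fr.vv_eq_single (h : Fr t) {g : G4} (hg : g ∈ Cfsg.spGL 2 F) {i j : Fin 5}
    (e : g * t i * g⁻¹ = t j ∨ g * t i * g⁻¹ = -t j) :
    vv t g i = Pi.single j 1 ∨ vv t g i = Pi.single j (-1) := by
  rcases e with e | e
  · left
    refine h.vec_inj ?_
    rw [← h.conj_t hg, e, vec_single, one_smul]
  · right
    refine h.vec_inj ?_
    rw [← h.conj_t hg, e, vec_single, Units.val_neg, neg_one_smul]

/-- A combination permuting the frame has support at most two. -/
theorem Fr.supp_le_two (h : Fr t) {u : G4} {v : Fin 5 → F} (hu : (u : M4) = vec t v)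
    (hv : v ⬝ᵥ v = 1) (hm : MonoAct t u) : (supp v).card ≤ 2 := by
  obtain ⟨j, hj⟩ := supp_nonempty hv
  obtain ⟨l, hl⟩ := hm j
  have hinv : ((u⁻¹ : G4) : M4) = vec t v := by
    rw [← hu]
    refine Units.inv_eq_of_mul_eq_one_right ?_
    rw [hu, h.vec_sq, hv, one_smul]
  have e : ((u * t j * u⁻¹ : G4) : M4) = vec t ((2 * v j) • v - Pi.single j 1) := by
    have e1 := h.vec_mul_add v (Pi.single j 1)
    rw [vec_single, one_smul, dotProduct_single, mul_one, add_comm] at e1
    rw [Units.val_mul, Units.val_mul, hu, hinv, mul_assoc, ← eq_sub_iff_add_eq] at *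
    rw [e1, mul_sub, mul_smul_comm, mul_one, ← mul_assoc, h.vec_sq, hv, one_smul, one_mul,
      sub_eq_add_neg ((2 * v j) • v), vec_add, vec_neg, vec_smul, vec_single, one_smul, ← sub_eq_add_neg]
  refine (Finset.card_le_card (t := {j, l}) fun i hi => ?_).trans Finset.card_le_two
  rw [Finset.mem_insert, Finset.mem_singleton]
  by_contra hne
  push Not at hne
  refine mem_supp.1 hi ?_
  have hz : ((2 * v j) • v - Pi.single j 1 : Fin 5 → F) i = 0 := by
    rcases hl with hl | hl <;> rw [hl] at e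
    · rw [← h.vec_inj ((by rw [vec_single, one_smul] : vec t (Pi.single l 1) = (t l : M4)).trans e),
        Pi.single_eq_of_ne hne.2]
    · rw [← h.vec_inj ((by rw [vec_single, Units.val_neg, neg_one_smul] :
        vec t (Pi.single l (-1)) = ((-t l : G4) : M4)).trans e), Pi.single_eq_of_ne hne.2]
  rw [Pi.sub_apply, Pi.smul_apply, Pi.single_eq_of_ne hne.1, sub_zero, smul_eq_mul] at hz
  exact (mul_eq_zero.1 hz).resolve_left (mul_ne_zero h.two (mem_supp.1 hj))

/-- The rescaled product of differences moving three members cyclically. -/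
theorem Fr.exists_three (h : Fr t) {a b c : Fin 5} (hab : a ≠ b) (hbc : b ≠ c) (hac : a ≠ c) :
    ∃ g : G4, g ∈ Cfsg.spGL 2 F ∧ g * t a * g⁻¹ = t b ∧ g * t b * g⁻¹ = t c ∧
      g * t c * g⁻¹ = t a ∧ ∀ d, d ≠ a → d ≠ b → d ≠ c → g * t d * g⁻¹ = t d := by
  set A : M4 := (t a : M4) - t b with hA
  set B : M4 := (t b : M4) - t c with hB
  have hAA : A * A = (2 : F) • 1 := h.frame.sub_mul_sub hab
  have hBB : B * B = (2 : F) • 1 := h.frame.sub_mul_sub hbc
  have h22 : (2 : F)⁻¹ * (2 : F)⁻¹ * (2 * 2) = 1 := by have := h.two; field_simp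
  have e1 : A * B * (B * A) = (2 * 2 : F) • (1 : M4) := by
    rw [mul_assoc, ← mul_assoc B B, hBB, smul_mul_assoc, one_mul, mul_smul_comm, hAA, smul_smul]
  have e2 : B * A * (A * B) = (2 * 2 : F) • (1 : M4) := by
    rw [mul_assoc, ← mul_assoc A A, hAA, smul_mul_assoc, one_mul, mul_smul_comm, hBB, smul_smul]
  let g : G4 := ⟨(2 : F)⁻¹ • (A * B), (2 : F)⁻¹ • (B * A),
    by rw [smul_mul_smul, e1, smul_smul, h22, one_smul], by rw [smul_mul_smul, e2, smul_smul, h22, one_smul]⟩
  have hadj : adj (g : M4) = ((g⁻¹ : G4) : M4) := by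
    show adj ((2 : F)⁻¹ • (A * B)) = (2 : F)⁻¹ • (B * A)
    rw [adj_smul, adj_mul, hA, hB, adj_sub, adj_sub, h.adj_t, h.adj_t, h.adj_t]
  have key : ∀ {x y : Fin 5}, SemiconjBy (A * B) (t x : M4) (t y : M4) → g * t x * g⁻¹ = t y := by
    intro x y hxy
    rw [mul_inv_eq_iff_eq_mul]
    apply Units.ext
    show ((2 : F)⁻¹ • (A * B)) * (t x : M4) = (t y : M4) * ((2 : F)⁻¹ • (A * B))
    rw [smul_mul_assoc, mul_smul_comm, hxy.eq]
  have hL := fun {i j : Fin 5} (hij : i ≠ j) => h.frame.semiconj_left hij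
  have hR := fun {i j : Fin 5} (hij : i ≠ j) => h.frame.semiconj_right hij
  have hO := fun {i j k : Fin 5} (hki : k ≠ i) (hkj : k ≠ j) =>
    h.frame.semiconj_other (i := i) (j := j) hki hkj
  refine ⟨g, mem_spGL_iff.2 (by rw [hadj, Units.inv_mul]), key ?_, key ?_, key ?_, fun d hda hdb hdc => key ?_⟩
  · have u := (hL hab).neg_right
    rw [neg_neg] at u
    exact u.mul_left (hO hab hac)
  · have u := (hO hac.symm hbc.symm).neg_right
    rw [neg_neg] at u
    exact u.mul_left (hL hbc)
  · have u := (hR hab).neg_right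
    rw [neg_neg] at u
    exact u.mul_left (hR hbc)
  · have u := (hO hda hdb).neg_right
    rw [neg_neg] at u
    exact u.mul_left (hO hdb hdc)

end Cfsg.Agent.H1.SpC6
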