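import Cfsg.Agent.H1.SpC6.Theta
import Cfsg.Agent.H2.SpGL
import Cfsg.Agent.H2.Perfect

/-!
An explicit frame of five symplectic involutions, and the linear action on coefficient vectors.
-/

set_option autoImplicit false

namespace Cfsg.Agent.H1.SpC6

open Matrix

variable {F : Type*} [Field F]

local notation "M4" => Matrix (Fin 2 ⊕ Fin 2) (Fin 2 ⊕ Fin 2) F
local notation "G4" => GL (Fin 2 ⊕ Fin 2) F

/-- The involution exchanging two hyperbolic planes by a unimodular matrix. -/
def offMat (p q r s : F) : M4 :=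
  Matrix.fromBlocks !![0, p; s, 0] !![0, q; -q, 0] !![0, r; -r, 0] !![0, s; p, 0]

/-- The sign change of one hyperbolic plane. -/
def diagMat : M4 := Matrix.fromBlocks !![-1, 0; 0, 1] 0 0 !![-1, 0; 0, 1]

theorem adj_offMat (p q r s : F) : adj (offMat p q r s) = offMat p q r s := by
  ext i j
  rcases i with i | i <;> rcases j with j | j <;> fin_cases i <;> fin_cases j <;>
    simp [adj, offMat, Matrix.J, Matrix.mul_apply, Fintype.sum_sum_type, Fin.sum_univ_two, Matrix.one_apply]

theorem adj_diagMat : adj (diagMat : M4) = diagMat := by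
  ext i j
  rcases i with i | i <;> rcases j with j | j <;> fin_cases i <;> fin_cases j <;>
    simp [adj, diagMat, Matrix.J, Matrix.mul_apply, Fintype.sum_sum_type, Fin.sum_univ_two, Matrix.one_apply]

/-- The five matrices of the model. -/
def modelMat (a b : F) : Fin 5 → M4 :=
  ![offMat 1 0 0 1, offMat 0 1 (-1) 0, offMat a b b (-a), offMat b (-a) (-a) (-b), diagMat]

/-- Frames of five symplectic involutions exist. -/
theorem exists_fr {a b : F} (q : QPar a b) : ∃ t : Fin 5 → G4, Fr t := by
  have hab := q.eq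
  have hsq : ∀ i, modelMat a b i * modelMat a b i = 1 := fun i => by
    rw [← Matrix.fromBlocks_one, Matrix.one_fin_two]
    fin_cases i <;>
      simp [modelMat, offMat, diagMat, Matrix.fromBlocks_multiply, Matrix.mul_fin_two, Matrix.fromBlocks_inj,
        ← Matrix.ext_iff, Fin.forall_fin_two] <;>
      (refine ⟨?_, ?_⟩ <;> try refine ⟨?_, ?_⟩) <;> first | linear_combination hab | linear_combination -hab | ring
  let t : Fin 5 → G4 := fun i => ⟨modelMat a b i, modelMat a b i, hsq i, hsq i⟩
  have hanti : ∀ i j, i ≠ j → modelMat a b i * modelMat a b j = -(modelMat a b j * modelMat a b i) := by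
    intro i j hij
    fin_cases i <;> fin_cases j <;> first | exact absurd rfl hij |
      (simp [modelMat, offMat, diagMat, Matrix.fromBlocks_multiply, Matrix.mul_fin_two, Matrix.fromBlocks_inj,
        Matrix.fromBlocks_neg, ← Matrix.ext_iff, Fin.forall_fin_two] <;> ring_nf <;> trivial)
  refine ⟨t, q.two, ⟨fun i => hsq i, fun i j hij => hanti i j hij⟩, fun i => ?_, ?_⟩
  · rw [mem_spGL_iff]
    show adj (modelMat a b i) * modelMat a b i = 1
    have e : adj (modelMat a b i) = modelMat a b i := by
      fin_cases i <;> simp [modelMat, adj_offMat, adj_diagMat]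
    rw [e, hsq]
  · show modelMat a b 0 * modelMat a b 1 * modelMat a b 2 * modelMat a b 3 * modelMat a b 4 = 1
    rw [← Matrix.fromBlocks_one, Matrix.one_fin_two]
    simp [modelMat, offMat, diagMat, Matrix.fromBlocks_multiply, Matrix.mul_fin_two, Matrix.fromBlocks_inj,
      ← Matrix.ext_iff, Fin.forall_fin_two]
    refine ⟨⟨⟨?_, ?_⟩, ?_, ?_⟩, ⟨?_, ?_⟩, ?_, ?_⟩ <;> first | linear_combination -hab | ring

variable {t : Fin 5 → GL (Fin 2 ⊕ Fin 2) F}

/-- The action on coefficient vectors by conjugation. -/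
def act (t : Fin 5 → G4) (g : G4) (v : Fin 5 → F) : Fin 5 → F :=
  coord t ((g : M4) * vec t v * (g⁻¹ : G4))

theorem Fr.vec_act (h : Fr t) {g : G4} (hg : g ∈ Cfsg.spGL 2 F) (v : Fin 5 → F) :
    vec t (act t g v) = (g : M4) * vec t v * (g⁻¹ : G4) := by
  obtain ⟨w, hw⟩ := h.conj_vec hg v
  rw [act, hw, h.coord_vec]

theorem act_add (g : G4) (v w : Fin 5 → F) : act t g (v + w) = act t g v + act t g w := by
  funext i
  simp only [act, vec_add, mul_add, add_mul, coord, trace_add, Pi.add_apply]

theorem act_smul (g : G4) (a : F) (v : Fin 5 → F) : act t g (a • v) = a • act t g v := by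
  funext i
  simp only [act, vec_smul, mul_smul_comm, smul_mul_assoc, coord, trace_smul, smul_eq_mul, Pi.smul_apply]
  ring

theorem Fr.act_one (h : Fr t) (v : Fin 5 → F) : act t (1 : G4) v = v := by
  rw [act, Units.val_one, inv_one, Units.val_one, one_mul, mul_one, h.coord_vec]

theorem Fr.act_mul (h : Fr t) {g g' : G4} (hg : g ∈ Cfsg.spGL 2 F) (hg' : g' ∈ Cfsg.spGL 2 F)
    (v : Fin 5 → F) : act t (g * g') v = act t g (act t g' v) := by
  refine h.vec_inj ?_
  rw [h.vec_act (mul_mem hg hg'), h.vec_act hg, h.vec_act hg', _root_.mul_inv_rev, Units.val_mul, Units.val_mul]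
  simp only [mul_assoc]

theorem Fr.act_dot (h : Fr t) {g : G4} (hg : g ∈ Cfsg.spGL 2 F) (v : Fin 5 → F) :
    act t g v ⬝ᵥ act t g v = v ⬝ᵥ v := by
  refine one_smul_inj (F := F) ?_
  rw [← h.vec_sq, h.vec_act hg, show (g : M4) * vec t v * (g⁻¹ : G4) * ((g : M4) * vec t v * (g⁻¹ : G4)) =
    (g : M4) * (vec t v * vec t v) * (g⁻¹ : G4) by
      simp only [mul_assoc, ← mul_assoc ((g⁻¹ : G4) : M4) (g : M4), Units.inv_mul, one_mul],
    h.vec_sq, mul_smul_comm, smul_mul_assoc, mul_one, Units.mul_inv]

theorem Fr.act_eq_vv (h : Fr t) (g : G4) (i : Fin 5) : act t g (Pi.single i 1) = vv t g i := by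
  rw [act, vec_single, one_smul, vv, Units.val_mul, Units.val_mul]

/-- The symplectic group is perfect. -/
theorem spGL_perfect [Fintype F] (h2 : (2 : F) ≠ 0) : commutator (Cfsg.spGL 2 F) = ⊤ := by
  have h3 : 3 ≤ Fintype.card F := by
    have := Fintype.one_lt_card (α := F)
    by_contra hlt
    refine h2 ?_
    have e := Nat.cast_card_eq_zero F
    rw [show Fintype.card F = 2 by omega] at e
    exact_mod_cast e
  have hperf := H2.commutator_sp_eq_top (m := 2) (F := F) (Or.inr (Or.inl ⟨rfl, h3⟩))
  set e := H2.spEquivSpGL 2 F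
  have := Subgroup.map_top_of_surjective e.toMonoidHom e.surjective
  rw [← this, ← hperf, commutator_def, commutator_def, Subgroup.map_commutator,
    Subgroup.map_top_of_surjective e.toMonoidHom e.surjective]

end Cfsg.Agent.H1.SpC6
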