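import Cfsg.Agent.H1.SpC6.Main
import Cfsg.Agent.H1.SpC6.Model
import Cfsg.Agent.H5.FrameBasic
import Cfsg.Agent.H5.StabNondeg

/-!
An overgroup of the signed permutations of an orthogonal frame of six vectors over a prime field with an
element fixing one frame vector and moving the frame contains the commutator subgroup.
-/

set_option autoImplicit false

namespace Cfsg.Agent.H1.SpC6

open QuadraticMap hiding sq
open Cfsg.Agent.H5 (orth refl OrthFrame coordAt sqc)

variable {F : Type*} [Field F] {V : Type*} [AddCommGroup V] [Module F V] {Q : QuadraticForm F V}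
  {e : Fin 6 → V} {c : F}

local notation "G4" => GL (Fin 2 ⊕ Fin 2) F
local notation "M4" => Matrix (Fin 2 ⊕ Fin 2) (Fin 2 ⊕ Fin 2) F

/-- The coordinates off one frame vector. -/
noncomputable def offCoord (Q : QuadraticForm F V) (e : Fin 6 → V) (c : F) (i : Fin 6) : V →ₗ[F] (Fin 5 → F) :=
  LinearMap.pi fun k => coordAt Q e c (i.succAbove k)

/-- Vectors orthogonal to one frame vector from five coefficients. -/
def offEmb (e : Fin 6 → V) (i : Fin 6) (v : Fin 5 → F) : V := ∑ k, v k • e (i.succAbove k)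

variable (hfr : OrthFrame Q e c) (i : Fin 6)
include hfr

theorem coord_offEmb_self (v : Fin 5 → F) : coordAt Q e c i (offEmb e i v) = 0 := by
  simp only [offEmb, map_sum, map_smul, smul_eq_mul]
  exact Finset.sum_eq_zero fun k _ => by rw [hfr.coord_other (Fin.succAbove_ne i k).symm, mul_zero]

theorem offCoord_offEmb (v : Fin 5 → F) : offCoord Q e c i (offEmb e i v) = v := by
  funext l
  simp only [offCoord, offEmb, LinearMap.pi_apply, map_sum, map_smul, smul_eq_mul]
  rw [Finset.sum_eq_single l]
  · rw [hfr.coord_self, mul_one]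
  · intro k _ hk
    rw [hfr.coord_other (fun he => hk (Fin.succAbove_right_injective he).symm), mul_zero]
  · intro hl; exact absurd (Finset.mem_univ l) hl

theorem offCoord_self : offCoord Q e c i (e i) = 0 := by
  funext l
  simp only [offCoord, LinearMap.pi_apply, Pi.zero_apply]
  exact hfr.coord_other (Fin.succAbove_ne i l)

theorem off_expand (x : V) : coordAt Q e c i x • e i + offEmb e i (offCoord Q e c i x) = x := by
  conv_rhs => rw [← hfr.expand x, Fin.sum_univ_succAbove _ i]
  rfl

theorem map_off (x : V) :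
    Q x = c * (coordAt Q e c i x ^ 2 + offCoord Q e c i x ⬝ᵥ offCoord Q e c i x) := by
  rw [hfr.map_eq_sum, Fin.sum_univ_succAbove _ i]
  simp only [dotProduct, offCoord, LinearMap.pi_apply, pow_two]

theorem polar_off (x y : V) : polar Q x y =
    2 * c * (coordAt Q e c i x * coordAt Q e c i y + offCoord Q e c i x ⬝ᵥ offCoord Q e c i y) := by
  rw [hfr.polar_eq_sum, Fin.sum_univ_succAbove _ i]
  simp only [dotProduct, offCoord, LinearMap.pi_apply]

theorem mem_perp_iff {x : V} :
    x ∈ H5.perp Q (Submodule.span F {e i}) ↔ coordAt Q e c i x = 0 := by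
  rw [H5.mem_perp_span, hfr.polar_coord]
  simp [hfr.two_ne, hfr.ne_zero]

/-- A unit combination of the frame gives minus a reflection, two of them two reflections. -/
theorem refl_offEmb (v : Fin 5 → F) (hv : v ⬝ᵥ v = 1) (x : V) :
    (refl Q (offEmb e i v) : V ≃ₗ[F] V) x = coordAt Q e c i x • e i +
      offEmb e i (offCoord Q e c i x - (2 * (v ⬝ᵥ offCoord Q e c i x)) • v) := by
  have hQ : Q (offEmb e i v) = c := by
    rw [map_off hfr i, coord_offEmb_self hfr, offCoord_offEmb hfr, hv]; ring
  have hp : polar Q (offEmb e i v) x = 2 * c * (v ⬝ᵥ offCoord Q e c i x) := by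
    rw [polar_off hfr i, coord_offEmb_self hfr, offCoord_offEmb hfr]; ring
  rw [H5.refl_apply, hQ, hp]
  conv_lhs => rw [← off_expand hfr i x]
  rw [off_expand hfr i x]
  nth_rewrite 1 [← off_expand hfr i x]
  simp only [offEmb, Pi.sub_apply, Pi.smul_apply, smul_eq_mul, sub_smul, Finset.sum_sub_distrib, Finset.smul_sum,
    smul_smul]
  rw [show c⁻¹ * (2 * c * (v ⬝ᵥ offCoord Q e c i x)) = 2 * (v ⬝ᵥ offCoord Q e c i x) by
    have := hfr.ne_zero; field_simp, add_sub_assoc]

variable {t : Fin 5 → GL (Fin 2 ⊕ Fin 2) F}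

/-- The symplectic group acting on the orthogonal complement of a frame vector. -/
noncomputable def toOrth (h : Fr t) : Cfsg.spGL 2 F →* orth Q where
  toFun g :=
    ⟨{ toFun := fun x => coordAt Q e c i x • e i + offEmb e i (act t (g : G4) (offCoord Q e c i x))
       map_add' := fun x y => by
        simp only [map_add, act_add, offEmb, Pi.add_apply, add_smul, Finset.sum_add_distrib]
        abel
       map_smul' := fun a x => by
        simp only [map_smul, act_smul, offEmb, Pi.smul_apply, smul_eq_mul, mul_smul, Finset.smul_sum,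
          smul_add, RingHom.id_apply]
       invFun := fun x => coordAt Q e c i x • e i + offEmb e i (act t ((g⁻¹ : Cfsg.spGL 2 F) : G4) (offCoord Q e c i x))
       left_inv := fun x => by
        simp only [map_add, map_smul, hfr.coord_self, coord_offEmb_self hfr, offCoord_offEmb hfr,
          offCoord_self hfr, smul_eq_mul, mul_one, add_zero, smul_zero, zero_add]
        rw [← h.act_mul (g⁻¹ : Cfsg.spGL 2 F).2 g.2, ← Subgroup.coe_mul, inv_mul_cancel, Subgroup.coe_one,
          h.act_one, off_expand hfr]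
       right_inv := fun x => by
        simp only [map_add, map_smul, hfr.coord_self, coord_offEmb_self hfr, offCoord_offEmb hfr,
          offCoord_self hfr, smul_eq_mul, mul_one, add_zero, smul_zero, zero_add]
        rw [← h.act_mul g.2 (g⁻¹ : Cfsg.spGL 2 F).2, ← Subgroup.coe_mul, mul_inv_cancel, Subgroup.coe_one,
          h.act_one, off_expand hfr] },
     fun x => by
      show Q (coordAt Q e c i x • e i + offEmb e i (act t (g : G4) (offCoord Q e c i x))) = Q x
      rw [map_off hfr i, map_off hfr i x]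
      simp only [map_add, map_smul, hfr.coord_self, coord_offEmb_self hfr, offCoord_offEmb hfr,
        offCoord_self hfr, smul_eq_mul, mul_one, add_zero, smul_zero, zero_add, h.act_dot g.2]⟩
  map_one' := H5.orth_ext fun x => by
    show coordAt Q e c i x • e i + offEmb e i (act t (1 : G4) (offCoord Q e c i x)) = x
    rw [h.act_one, off_expand hfr]
  map_mul' g g' := H5.orth_ext fun x => by
    rw [H5.orth_mul_apply]
    show coordAt Q e c i x • e i + offEmb e i (act t ((g * g' : Cfsg.spGL 2 F) : G4) (offCoord Q e c i x)) =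
      coordAt Q e c i (coordAt Q e c i x • e i + offEmb e i (act t (g' : G4) (offCoord Q e c i x))) • e i +
        offEmb e i (act t (g : G4) (offCoord Q e c i
          (coordAt Q e c i x • e i + offEmb e i (act t (g' : G4) (offCoord Q e c i x)))))
    simp only [map_add, map_smul, hfr.coord_self, coord_offEmb_self hfr, offCoord_offEmb hfr,
      offCoord_self hfr, smul_eq_mul, mul_one, add_zero, smul_zero, zero_add, Subgroup.coe_mul,
      h.act_mul g.2 g'.2]

theorem toOrth_apply (h : Fr t) (g : Cfsg.spGL 2 F) (x : V) :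
    (toOrth hfr i h g : V ≃ₗ[F] V) x =
      coordAt Q e c i x • e i + offEmb e i (act t (g : G4) (offCoord Q e c i x)) := rfl

theorem toOrth_mono (h : Fr t) (g : Cfsg.spGL 2 F) (hg : MonoAct t (g : G4)) :
    H5.Mono e (toOrth hfr i h g) := by
  intro j
  rcases Fin.eq_self_or_eq_succAbove i j with rfl | ⟨k, rfl⟩
  · refine ⟨j, Or.inl ?_⟩
    rw [toOrth_apply, hfr.coord_self, one_smul, offCoord_self hfr]
    have e0 : act t (g : G4) (0 : Fin 5 → F) = 0 := by
      simpa using act_smul (t := t) (g : G4) (0 : F) (0 : Fin 5 → F)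
    rw [e0, offEmb]
    simp
  · obtain ⟨l, hl⟩ := hg k
    refine ⟨i.succAbove l, ?_⟩
    have hs : offCoord Q e c i (e (i.succAbove k)) = Pi.single k 1 := by
      funext m
      rcases eq_or_ne m k with rfl | hm
      · simp [offCoord, hfr.coord_self]
      · rw [Pi.single_eq_of_ne hm]
        exact hfr.coord_other (fun he => hm (Fin.succAbove_right_injective he))
    rw [toOrth_apply, hfr.coord_other (Fin.succAbove_ne i k).symm, zero_smul, zero_add, hs, h.act_eq_vv]
    rcases h.vv_eq_single g.2 hl with e' | e'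
    · left
      rw [e', offEmb, Finset.sum_eq_single l (fun m _ hm => by rw [Pi.single_eq_of_ne hm, zero_smul])
        (fun hm => absurd (Finset.mem_univ l) hm), Pi.single_eq_same, one_smul]
    · right
      rw [e', offEmb, Finset.sum_eq_single l (fun m _ hm => by rw [Pi.single_eq_of_ne hm, zero_smul])
        (fun hm => absurd (Finset.mem_univ l) hm), Pi.single_eq_same, neg_one_smul]

/-- Two reflections in unit vectors of the complement come from the symplectic group. -/
theorem refl_pair_mem_range (h : Fr t) {u w : Fin 5 → F} (hu : u ⬝ᵥ u = 1) (hw : w ⬝ᵥ w = 1) :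
    refl Q (offEmb e i u) * refl Q (offEmb e i w) ∈ (toOrth hfr i h).range := by
  have mk : ∀ v : Fin 5 → F, v ⬝ᵥ v = 1 → ∃ g : Cfsg.spGL 2 F, ((g : G4) : M4) = vec t v ∧
      (((g : G4)⁻¹ : G4) : M4) = vec t v := fun v hv => by
    have e1 : vec t v * vec t v = 1 := by rw [h.vec_sq, hv, one_smul]
    let g : G4 := ⟨vec t v, vec t v, e1, e1⟩
    exact ⟨⟨g, mem_spGL_iff.2 (by show adj (vec t v) * vec t v = 1; rw [h.adj_vec, e1])⟩, rfl, rfl⟩
  obtain ⟨gu, hgu, hgu'⟩ := mk u hu
  obtain ⟨gw, hgw, hgw'⟩ := mk w hw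
  have hact : ∀ (g : Cfsg.spGL 2 F) (v X : Fin 5 → F), v ⬝ᵥ v = 1 → ((g : G4) : M4) = vec t v →
      (((g : G4)⁻¹ : G4) : M4) = vec t v → act t (g : G4) X = (2 * (v ⬝ᵥ X)) • v - X := by
    intro g v X hv e1 e2
    refine h.vec_inj ?_
    rw [h.vec_act g.2, e1, e2, eq_sub_of_add_eq (h.vec_mul_add v X), sub_mul, smul_mul_assoc, one_mul, mul_assoc,
      h.vec_sq, hv, one_smul, mul_one, sub_eq_add_neg ((2 * (v ⬝ᵥ X)) • v), vec_add, vec_smul, vec_neg,
      ← sub_eq_add_neg]
  refine ⟨gu * gw, H5.orth_ext fun x => ?_⟩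
  rw [toOrth_apply, Subgroup.coe_mul, h.act_mul gu.2 gw.2, hact gu u _ hu hgu hgu', hact gw w _ hw hgw hgw',
    H5.orth_mul_apply, refl_offEmb hfr i w hw, refl_offEmb hfr i u hu]
  simp only [map_add, map_smul, hfr.coord_self, coord_offEmb_self hfr, offCoord_offEmb hfr,
    offCoord_self hfr, smul_eq_mul, mul_one, add_zero, smul_zero, zero_add]
  congr 2
  simp only [dotProduct_sub, dotProduct_smul, smul_eq_mul]
  module

omit hfr in
/-- Products of reflections in orthogonal pairs of the complement with equal values. -/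
def pairs' (Q : QuadraticForm F V) (z : V) : Subgroup (orth Q) :=
  Subgroup.closure {g | ∃ a b, polar Q z a = 0 ∧ polar Q z b = 0 ∧ Q a ≠ 0 ∧ Q b = Q a ∧ polar Q a b = 0 ∧
    g = refl Q a * refl Q b}

variable [Fintype F]

theorem pairs'_le_range (h : Fr t) : pairs' Q (e i) ≤ (toOrth hfr i h).range := by
  refine (Subgroup.closure_le _).2 ?_
  rintro _ ⟨a, b, ha, hb, ha0, hab, hort, rfl⟩
  have h2 := hfr.two_ne
  have hc := hfr.ne_zero
  obtain ⟨α, β, hαβ⟩ := exists_sq_add_eq h2 (c / Q a)
  have hνc : Q a * (α ^ 2 + β ^ 2) = c := by rw [hαβ]; field_simp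
  set u := α • a + β • b with hu
  set w := (-β) • a + α • b with hw
  have hQu : Q u = c := by
    rw [hu, H5.map_smul_add_smul, hab, hort]; linear_combination hνc
  have hQw : Q w = c := by
    rw [hw, H5.map_smul_add_smul, hab, hort]; linear_combination hνc
  have hmem : ∀ {y : V}, polar Q (e i) y = 0 → coordAt Q e c i y = 0 := fun hy =>
    (mem_perp_iff hfr i).1 (H5.mem_perp_span.2 hy)
  have hu0 : coordAt Q e c i u = 0 := by
    rw [hu, map_add, map_smul, map_smul, hmem ha, hmem hb, smul_zero, smul_zero, add_zero]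
  have hw0 : coordAt Q e c i w = 0 := by
    rw [hw, map_add, map_smul, map_smul, hmem ha, hmem hb, smul_zero, smul_zero, add_zero]
  have unit : ∀ {y : V}, coordAt Q e c i y = 0 → Q y = c →
      offCoord Q e c i y ⬝ᵥ offCoord Q e c i y = 1 ∧ offEmb e i (offCoord Q e c i y) = y := by
    intro y hy hQy
    refine ⟨?_, ?_⟩
    · rw [map_off hfr i, hy] at hQy
      exact mul_left_cancel₀ hc (by linear_combination hQy)
    · have := off_expand hfr i y
      rwa [hy, zero_smul, zero_add] at this
  obtain ⟨u1, u2⟩ := unit hu0 hQu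
  obtain ⟨w1, w2⟩ := unit hw0 hQw
  have key := refl_pair_mem_range hfr i h u1 w1
  rw [u2, w2] at key
  refine (?_ : refl Q u * refl Q w = refl Q a * refl Q b) ▸ key
  refine H5.orth_ext fun x => ?_
  have huw : polar Q u w = 0 := by
    simp only [hu, hw, polar_add_left, polar_add_right, polar_smul_left, polar_smul_right, H5.polar_self',
      hort, polar_comm (⇑Q) b a, hab, smul_eq_mul]
    ring
  rw [H5.orth_mul_apply, H5.orth_mul_apply, H5.refl_apply Q w, H5.refl_apply Q b, H5.refl_apply Q u,
    H5.refl_apply Q a, polar_sub_right, polar_sub_right, polar_smul_right, polar_smul_right, huw, hort,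
    smul_zero, smul_zero, sub_zero, sub_zero, hQu, hQw, hab, hu, hw]
  simp only [polar_add_left, polar_smul_left, smul_eq_mul]
  match_scalars
  · ring
  · field_simp
    linear_combination -(polar Q a x) * hνc
  · field_simp
    linear_combination -(polar Q b x) * hνc

variable [FiniteDimensional F V]

/-- Orthogonal intermediaries of prescribed value. -/
theorem exists_between {a b : V} (ha : polar Q (e i) a = 0) (hb : polar Q (e i) b = 0) (ha0 : Q a ≠ 0) :
    ∃ d, polar Q (e i) d = 0 ∧ polar Q a d = 0 ∧ polar Q b d = 0 ∧ Q d = Q a := by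
  set T := Submodule.span F ({e i, a, b} : Set V) with hT
  set S := H5.perp Q T with hS
  have hTle : Module.finrank F T ≤ 3 := by
    classical
    have := finrank_span_finset_le_card (R := F) ({e i, a, b} : Finset V)
    rw [Finset.coe_insert, Finset.coe_insert, Finset.coe_singleton] at this
    exact this.trans Finset.card_le_three
  have h6 : Module.finrank F V = 6 := by
    have hle : ⊤ ≤ Submodule.span F (Set.range e) := fun x _ => by
      rw [← hfr.expand x]
      exact Submodule.sum_mem _ fun k _ => Submodule.smul_mem _ _ (Submodule.subset_span ⟨k, rfl⟩)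
    have hli : LinearIndependent F e := by
      rw [Fintype.linearIndependent_iff]
      intro g hg k
      have e1 := congrArg (coordAt Q e c k) hg
      simpa [map_sum, hfr.coord_vec] using e1
    rw [Module.finrank_eq_card_basis (Module.Basis.mk hli hle), Fintype.card_fin]
  have hdim := H5.finrank_perp_add hfr.nondeg T
  rw [← hS, h6] at hdim
  have memS : ∀ {x}, x ∈ S → polar Q (e i) x = 0 ∧ polar Q a x = 0 ∧ polar Q b x = 0 := fun {x} hx =>
    ⟨hx _ (Submodule.subset_span (by simp)), hx _ (Submodule.subset_span (by simp)),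
      hx _ (Submodule.subset_span (by simp))⟩
  have contra : ∀ {x}, x ∈ S → Q x = 0 ∨ Q x ≠ 0 := fun _ => em _
  obtain ⟨x, hxS, hx0⟩ : ∃ x ∈ S, Q x ≠ 0 := by
    by_contra! hall
    have hts : S ≤ H5.perp Q S := H5.le_perp_of_forall_eq_zero hall
    rw [hS, H5.perp_perp hfr.nondeg] at hts
    have heq : S = T := Submodule.eq_of_le_of_finrank_le hts (by omega)
    exact ha0 (hall a (heq ▸ Submodule.subset_span (by simp)))
  obtain ⟨y, hyS, hxy, hy0⟩ : ∃ y ∈ S, polar Q x y = 0 ∧ Q y ≠ 0 := by
    by_contra! hall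
    set S' := S ⊓ H5.perp Q (Submodule.span F {x}) with hS'
    have hall' : ∀ y ∈ S', Q y = 0 := fun y hy => hall y hy.1 (H5.mem_perp_span.1 hy.2)
    have hS'T : S' ≤ T := by
      intro y hy
      rw [← H5.perp_perp hfr.nondeg T]
      intro z hz
      set r := polar Q x z / (2 * Q x) with hr
      have hz' : z - r • x ∈ S' := ⟨S.sub_mem hz (S.smul_mem _ hxS), H5.mem_perp_span.2 (by
        rw [polar_sub_right, polar_smul_right, H5.polar_self', hr, smul_eq_mul]
        have := hfr.two_ne
        field_simp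
        ring)⟩
      have e1 : polar Q (z - r • x) y = 0 :=
        H5.le_perp_of_forall_eq_zero hall' hy _ hz'
      rw [polar_sub_left, polar_smul_left, H5.mem_perp_span.1 hy.2, smul_zero, sub_zero] at e1
      show polar Q z y = 0
      exact e1
    have hle2 : S' ≤ Submodule.span F ({a, b} : Set V) := by
      intro y hy
      have hyT := hS'T hy
      rw [hT, Submodule.mem_span_insert] at hyT
      obtain ⟨r, z, hz, rfl⟩ := hyT
      have hzi : polar Q (e i) z = 0 := by
        obtain ⟨p, q', rfl⟩ := Submodule.mem_span_pair.1 hz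
        rw [polar_add_right, polar_smul_right, polar_smul_right, ha, hb, smul_zero, smul_zero, add_zero]
      have e1 := (memS hy.1).1
      rw [polar_add_right, polar_smul_right, hzi, add_zero, H5.polar_self', hfr.val, smul_eq_mul] at e1
      have hr : r = 0 := (mul_eq_zero.1 e1).resolve_right (mul_ne_zero hfr.two_ne hfr.ne_zero)
      rw [hr, zero_smul, zero_add]
      exact hz
    have hd2 : Module.finrank F (Submodule.span F ({a, b} : Set V)) ≤ 2 := by
      classical
      have := finrank_span_finset_le_card (R := F) ({a, b} : Finset V)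
      rw [Finset.coe_insert, Finset.coe_singleton] at this
      exact this.trans Finset.card_le_two
    have hd3 := Submodule.finrank_sup_add_finrank_inf_eq S (H5.perp Q (Submodule.span F {x}))
    rw [← hS'] at hd3
    have hx1 := H5.finrank_perp_add hfr.nondeg (Submodule.span F {x})
    have hspan1 : Module.finrank F (Submodule.span F {x}) ≤ 1 := by
      simpa using finrank_span_le_card ({x} : Set V)
    have hsupd := Submodule.finrank_le (S ⊔ H5.perp Q (Submodule.span F {x}))
    rw [h6] at hx1 hsupd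
    have heq : S' = Submodule.span F ({a, b} : Set V) := Submodule.eq_of_le_of_finrank_le hle2 (by omega)
    exact ha0 (hall' a (heq ▸ Submodule.subset_span (by simp)))
  obtain ⟨α, β, hαβ⟩ : ∃ α β : F, α ^ 2 * Q x + β ^ 2 * Q y = Q a := by
    have hodd : Fintype.card F % 2 = 1 := FiniteField.odd_card_of_char_ne_two fun hc => hfr.two_ne (by
      have := ringChar.Nat.cast_ringChar (R := F)
      rw [hc] at this
      exact_mod_cast this)
    have hd1 : (Polynomial.C (Q x) * Polynomial.X ^ 2).degree = 2 := Polynomial.degree_C_mul_X_pow 2 hx0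
    have hd2 : (Polynomial.C (Q y) * Polynomial.X ^ 2 - Polynomial.C (Q a)).degree = 2 := by
      rw [Polynomial.degree_sub_eq_left_of_degree_lt] <;> rw [Polynomial.degree_C_mul_X_pow 2 hy0]
      · rfl
      · exact lt_of_le_of_lt Polynomial.degree_C_le (by norm_num)
    obtain ⟨α, β, hh⟩ := FiniteField.exists_root_sum_quadratic hd1 hd2 hodd
    exact ⟨α, β, by simp at hh; linear_combination hh⟩
  obtain ⟨xi, xa, xb⟩ := memS hxS
  obtain ⟨yi, ya, yb⟩ := memS hyS
  refine ⟨α • x + β • y, ?_, ?_, ?_, ?_⟩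
  · rw [polar_add_right, polar_smul_right, polar_smul_right, xi, yi, smul_zero, smul_zero, add_zero]
  · rw [polar_add_right, polar_smul_right, polar_smul_right, xa, ya, smul_zero, smul_zero, add_zero]
  · rw [polar_add_right, polar_smul_right, polar_smul_right, xb, yb, smul_zero, smul_zero, add_zero]
  · rw [H5.map_smul_add_smul, hxy]
    linear_combination hαβ

theorem same_class_mem {a b : V} (ha : polar Q (e i) a = 0) (hb : polar Q (e i) b = 0) (ha0 : Q a ≠ 0)
    (hb0 : Q b ≠ 0) (hs : sqc (Q a) = sqc (Q b)) : refl Q a * refl Q b ∈ pairs' Q (e i) := by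
  obtain ⟨r, hr, hrb⟩ := (H5.sqc_eq_sqc_iff hb0 ha0).1 hs.symm
  have hb' : Q (r • b) = Q a := by rw [QuadraticMap.map_smul, smul_eq_mul, ← hrb]
  have hib : polar Q (e i) (r • b) = 0 := by rw [polar_smul_right, hb, smul_zero]
  rw [← H5.refl_smul hr b]
  obtain ⟨d, hd, had, hbd, hQd⟩ := exists_between hfr i ha hib ha0
  have hsplit : refl Q a * refl Q (r • b) = (refl Q a * refl Q d) * (refl Q d * refl Q (r • b)) := by
    rw [mul_assoc, ← mul_assoc (refl Q d), H5.refl_mul_self, one_mul]
  rw [hsplit]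
  refine mul_mem (Subgroup.subset_closure ⟨a, d, ha, hd, ha0, hQd, had, rfl⟩)
    (Subgroup.subset_closure ⟨d, r • b, hd, hib, by rw [hQd]; exact ha0, by rw [hb', hQd], ?_, rfl⟩)
  rw [polar_comm]; exact hbd

omit [Fintype F] [FiniteDimensional F V] in
theorem refl_fix {v : V} (hv : polar Q (e i) v = 0) : (refl Q v : V ≃ₗ[F] V) (e i) = e i :=
  H5.refl_apply_of_ortho (by rw [polar_comm]; exact hv)

omit [FiniteDimensional F V] in
theorem conj_pairs' {v : V} (hv : polar Q (e i) v = 0) {g : orth Q} (hg : g ∈ pairs' Q (e i)) :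
    refl Q v * g * refl Q v ∈ pairs' Q (e i) := by
  have key : pairs' Q (e i) ≤ (pairs' Q (e i)).comap (MulAut.conj (refl Q v)).toMonoidHom := by
    refine (Subgroup.closure_le _).2 ?_
    rintro _ ⟨a, b, ha, hb, ha0, hab, hort, rfl⟩
    show refl Q v * (refl Q a * refl Q b) * (refl Q v)⁻¹ ∈ pairs' Q (e i)
    rw [show refl Q v * (refl Q a * refl Q b) * (refl Q v)⁻¹ =
      (refl Q v * refl Q a * (refl Q v)⁻¹) * (refl Q v * refl Q b * (refl Q v)⁻¹) by group,
      H5.refl_conj, H5.refl_conj]
    refine Subgroup.subset_closure ⟨_, _, ?_, ?_, ?_, ?_, ?_, rfl⟩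
    · rw [← refl_fix hfr i hv, H5.orth_polar]; exact ha
    · rw [← refl_fix hfr i hv, H5.orth_polar]; exact hb
    · rw [H5.orth_map]; exact ha0
    · rw [H5.orth_map, H5.orth_map]; exact hab
    · rw [H5.orth_polar]; exact hort
  have := key hg
  rwa [Subgroup.mem_comap, MulEquiv.coe_toMonoidHom, MulAut.conj_apply, H5.refl_inv] at this

/-- An element fixing the frame vector is a product of reflections orthogonal to it. -/
theorem mem_off_reflGroup {g : orth Q} (hg : (g : V ≃ₗ[F] V) (e i) = e i) :
    g ∈ Subgroup.closure {r : orth Q | ∃ v, polar Q (e i) v = 0 ∧ Q v ≠ 0 ∧ r = refl Q v} := by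
  classical
  set G' := Subgroup.closure {r : orth Q | ∃ v, polar Q (e i) v = 0 ∧ Q v ≠ 0 ∧ r = refl Q v} with hG'
  have key : ∀ s : Finset (Fin 5), ∃ r ∈ G', ((r * g : orth Q) : V ≃ₗ[F] V) (e i) = e i ∧
      ∀ k ∈ s, ((r * g : orth Q) : V ≃ₗ[F] V) (e (i.succAbove k)) = e (i.succAbove k) := by
    intro s
    induction s using Finset.induction_on with
    | empty => exact ⟨1, one_mem _, by rw [one_mul, hg], by simp⟩
    | insert j s hj ih =>
      obtain ⟨r, hr, hfix, hs⟩ := ih
      set x := ((r * g : orth Q) : V ≃ₗ[F] V) (e (i.succAbove j)) with hx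
      set y := e (i.succAbove j) with hy
      have hne : i ≠ i.succAbove j := (Fin.succAbove_ne i j).symm
      have hxi : polar Q (e i) x = 0 := by
        conv_lhs => rw [← hfix, hx, H5.orth_polar, hfr.ortho hne]
      have hyi : polar Q (e i) y = 0 := hfr.ortho hne
      have hxk : ∀ k ∈ s, polar Q (e (i.succAbove k)) x = 0 := fun k hk => by
        have hkj : i.succAbove k ≠ i.succAbove j := fun he => hj (Fin.succAbove_right_injective he ▸ hk)
        conv_lhs => rw [← hs k hk, hx, H5.orth_polar, hfr.ortho hkj]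
      have hyk : ∀ k ∈ s, polar Q (e (i.succAbove k)) y = 0 := fun k hk =>
        hfr.ortho fun he => hj (Fin.succAbove_right_injective he ▸ hk)
      have hQx : Q x = Q y := H5.orth_map _ _
      have fixk : ∀ {v : V}, (∀ k ∈ s, polar Q (e (i.succAbove k)) v = 0) → ∀ k ∈ s,
          (refl Q v : V ≃ₗ[F] V) (e (i.succAbove k)) = e (i.succAbove k) := fun hv k hk =>
        H5.refl_apply_of_ortho (by rw [polar_comm]; exact hv k hk)
      by_cases hd : Q (x - y) = 0
      · have hsum : Q (x + y) ≠ 0 := by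
          have e1 : Q (x + y) + Q (x - y) = 4 * c := by
            rw [QuadraticMap.map_add (⇑Q), H5.map_sub', hQx, hy, hfr.val]; ring
          rw [hd, add_zero] at e1
          rw [e1, show (4 : F) = 2 * 2 by norm_num]
          exact mul_ne_zero (mul_ne_zero hfr.two_ne hfr.two_ne) hfr.ne_zero
        have m1 : (refl Q (x + y) : V ≃ₗ[F] V) x = -y := by
          have := H5.refl_sub_apply (Q := Q) (x := x) (y := -y) (by rw [QuadraticMap.map_neg, hQx])
            (by rwa [sub_neg_eq_add])
          rwa [sub_neg_eq_add] at this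
        have hQy : Q y ≠ 0 := by rw [hy, hfr.val]; exact hfr.ne_zero
        have m2 : (refl Q y : V ≃ₗ[F] V) (-y) = y := by
          rw [map_neg, H5.refl_apply_self hQy, neg_neg]
        refine ⟨refl Q y * (refl Q (x + y) * r), mul_mem (Subgroup.subset_closure ⟨y, hyi, hQy, rfl⟩)
          (mul_mem (Subgroup.subset_closure ⟨x + y, by rw [polar_add_right, hxi, hyi, add_zero], hsum, rfl⟩) hr),
          ?_, fun k hk => ?_⟩
        · rw [mul_assoc, mul_assoc, H5.orth_mul_apply, H5.orth_mul_apply, hfix,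
            refl_fix hfr i (v := x + y) (by rw [polar_add_right, hxi, hyi, add_zero]), refl_fix hfr i hyi]
        · rw [mul_assoc, mul_assoc, H5.orth_mul_apply, H5.orth_mul_apply]
          rcases Finset.mem_insert.1 hk with rfl | hk
          · rw [← hx, m1, m2]
          · rw [hs k hk, fixk (v := x + y) (fun l hl => by rw [polar_add_right, hxk l hl, hyk l hl, add_zero]) k hk,
              fixk hyk k hk]
      · refine ⟨refl Q (x - y) * r,
          mul_mem (Subgroup.subset_closure ⟨x - y, by rw [polar_sub_right, hxi, hyi, sub_zero], hd, rfl⟩) hr,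
          ?_, fun k hk => ?_⟩
        · rw [mul_assoc, H5.orth_mul_apply, hfix,
            refl_fix hfr i (v := x - y) (by rw [polar_sub_right, hxi, hyi, sub_zero])]
        · rw [mul_assoc, H5.orth_mul_apply]
          rcases Finset.mem_insert.1 hk with rfl | hk
          · rw [← hx, H5.refl_sub_apply hQx hd]
          · rw [hs k hk, fixk (v := x - y) (fun l hl => by rw [polar_sub_right, hxk l hl, hyk l hl, sub_zero]) k hk]
  obtain ⟨r, hr, hfix, hall⟩ := key Finset.univ
  have h1 : r * g = 1 := H5.orth_ext fun x => by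
    conv_lhs => rw [← hfr.expand x]
    rw [map_sum]
    conv_rhs => rw [show ((1 : orth Q) : V ≃ₗ[F] V) x = x from rfl, ← hfr.expand x]
    refine Finset.sum_congr rfl fun k _ => ?_
    rw [map_smul]
    congr 1
    rcases Fin.eq_self_or_eq_succAbove i k with rfl | ⟨l, rfl⟩
    · exact hfix
    · exact hall l (Finset.mem_univ _)
  rw [eq_inv_of_mul_eq_one_right h1]
  exact inv_mem hr

variable [Finite V]

/-- The stabiliser of the frame vector in the commutator subgroup comes from the symplectic group. -/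
theorem fix_mem_range (h : Fr t) {g : orth Q} (hg : g ∈ commutator (orth Q))
    (hgi : (g : V ≃ₗ[F] V) (e i) = e i) : g ∈ (toOrth hfr i h).range := by
  classical
  refine pairs'_le_range hfr i h ?_
  have h6 : 5 ≤ Module.finrank F V := by
    have hli : LinearIndependent F e := by
      rw [Fintype.linearIndependent_iff]
      intro g' hg' k
      have e1 := congrArg (coordAt Q e c k) hg'
      simpa [map_sum, hfr.coord_vec] using e1
    have := hli.fintype_card_le_finrank
    rw [Fintype.card_fin] at this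
    omega
  have hcond : Nat.card F ≠ 2 ∨ Module.finrank F V ≠ 4 := Or.inr (by omega)
  obtain ⟨ν, hν⟩ := H5.exists_not_isSquare hfr.two_ne
  have hν0 : ν ≠ 0 := fun h0 => hν (h0 ▸ IsSquare.zero)
  obtain ⟨α, β, hαβ⟩ := exists_sq_add_eq hfr.two_ne ν
  set u₀ := e (i.succAbove 0) with hu₀
  set a₀ := α • e (i.succAbove 0) + β • e (i.succAbove 1) with ha₀
  have hu₀i : polar Q (e i) u₀ = 0 := hfr.ortho (Fin.succAbove_ne i 0).symm
  have ha₀i : polar Q (e i) a₀ = 0 := by
    rw [ha₀, polar_add_right, polar_smul_right, polar_smul_right, hfr.ortho (Fin.succAbove_ne i 0).symm,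
      hfr.ortho (Fin.succAbove_ne i 1).symm, smul_zero, smul_zero, add_zero]
  have hQu : Q u₀ = c := hfr.val _
  have hQa : Q a₀ = ν * c := by
    rw [ha₀, H5.map_smul_add_smul, hfr.val, hfr.val,
      hfr.ortho (fun he => absurd (Fin.succAbove_right_injective he) (by decide)), ← hαβ]
    ring
  have hQa0 : Q a₀ ≠ 0 := by rw [hQa]; exact mul_ne_zero hν0 hfr.ne_zero
  have hQu0 : Q u₀ ≠ 0 := by rw [hQu]; exact hfr.ne_zero
  set U := refl Q u₀ with hU
  set A := refl Q a₀ with hA
  set P := pairs' Q (e i) with hP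
  have hUU : U * U = 1 := H5.refl_mul_self _
  have hAA : A * A = 1 := H5.refl_mul_self _
  have hAU : A * U * A * U ∈ P := by
    rw [show A * U * A * U = (A * U * A⁻¹) * U by rw [hA, H5.refl_inv], hA, hU, H5.refl_conj]
    refine same_class_mem hfr i ?_ hu₀i (by rw [H5.orth_map]; exact hQu0) hQu0 (by rw [H5.orth_map])
    rw [← refl_fix hfr i ha₀i, H5.orth_polar]; exact hu₀i
  have hclass : ∀ v, polar Q (e i) v = 0 → Q v ≠ 0 → refl Q v * U ∈ P ∨ refl Q v * A ∈ P := by
    intro v hv hv0
    by_cases hs : sqc (Q v) = sqc (Q u₀)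
    · exact Or.inl (same_class_mem hfr i hv hu₀i hv0 hQu0 hs)
    · refine Or.inr (same_class_mem hfr i hv ha₀i hv0 hQa0 ?_)
      rw [hQa, H5.sqc_mul hν0 hfr.ne_zero, H5.sqc_eq_neg_one_iff.2 hν, ← hQu]
      rcases Int.units_eq_one_or (sqc (Q v)) with h1 | h1 <;>
        rcases Int.units_eq_one_or (sqc (Q u₀)) with h2 | h2 <;> rw [h1, h2] at hs ⊢ <;>
        first | exact absurd rfl hs | rfl
  have coset : ∀ g ∈ Subgroup.closure {r : orth Q | ∃ v, polar Q (e i) v = 0 ∧ Q v ≠ 0 ∧ r = refl Q v},
      ∃ p ∈ P, g = p ∨ g = p * U ∨ g = p * A ∨ g = p * (U * A) := by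
    intro g hg
    have step : ∀ v, polar Q (e i) v = 0 → Q v ≠ 0 → ∀ g, (∃ p ∈ P, g = p ∨ g = p * U ∨ g = p * A ∨ g = p * (U * A)) →
        ∃ p ∈ P, refl Q v * g = p ∨ refl Q v * g = p * U ∨ refl Q v * g = p * A ∨ refl Q v * g = p * (U * A) := by
      rintro v hv hv0 g ⟨p, hp, hg⟩
      have hp' := conj_pairs' hfr i hv hp
      set r := refl Q v with hr
      have hrr : r * r = 1 := H5.refl_mul_self _
      have pull : ∀ X, r * (p * X) = r * p * r * (r * X) := fun X => by
        rw [← mul_assoc (r * p * r) r, mul_assoc (r * p) r r, hrr, mul_one, mul_assoc]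
      have hgr : ∃ k, (k = 1 ∨ k = U ∨ k = A ∨ k = U * A) ∧ g = p * k := by
        rcases hg with e | e | e | e
        exacts [⟨1, Or.inl rfl, by rw [mul_one, e]⟩, ⟨U, Or.inr (Or.inl rfl), e⟩,
          ⟨A, Or.inr (Or.inr (Or.inl rfl)), e⟩, ⟨U * A, Or.inr (Or.inr (Or.inr rfl)), e⟩]
      obtain ⟨k, hk, rfl⟩ := hgr
      have hUU' : ∀ X, U * (U * X) = X := fun X => by rw [← mul_assoc, hUU, one_mul]
      have hAA' : ∀ X, A * (A * X) = X := fun X => by rw [← mul_assoc, hAA, one_mul]
      rw [pull]
      rcases hclass v hv hv0 with hX | hX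
      · rw [← hr] at hX
        have hq := mul_mem hp' hX
        rcases hk with rfl | rfl | rfl | rfl
        · exact ⟨_, hq, Or.inr (Or.inl (by simp only [mul_assoc, hUU, mul_one]))⟩
        · exact ⟨_, hq, Or.inl rfl⟩
        · exact ⟨_, hq, Or.inr (Or.inr (Or.inr (by simp only [mul_assoc, hUU'])))⟩
        · exact ⟨_, hq, Or.inr (Or.inr (Or.inl (by simp only [mul_assoc])))⟩
      · rw [← hr] at hX
        have hq := mul_mem hp' hX
        have hq' := mul_mem hq hAU
        rcases hk with rfl | rfl | rfl | rfl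
        · exact ⟨_, hq, Or.inr (Or.inr (Or.inl (by simp only [mul_assoc, hAA, mul_one])))⟩
        · exact ⟨_, hq', Or.inr (Or.inr (Or.inr (by simp only [mul_assoc, hUU', hAA', hAA, mul_one])))⟩
        · exact ⟨_, hq, Or.inl rfl⟩
        · exact ⟨_, hq', Or.inr (Or.inl (by simp only [mul_assoc, hUU, hAA', mul_one]))⟩
    induction hg using Subgroup.closure_induction_left with
    | one => exact ⟨1, one_mem _, Or.inl rfl⟩
    | mul_left x hx y hy ih =>
      obtain ⟨v, hv, hv0, rfl⟩ := hx
      exact step v hv hv0 y ih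
    | inv_mul_cancel x hx y hy ih =>
      obtain ⟨v, hv, hv0, rfl⟩ := hx
      rw [H5.refl_inv]
      exact step v hv hv0 y ih
  obtain ⟨p, hp, hk⟩ := coset g (mem_off_reflGroup hfr i hgi)
  have hpc : P ≤ commutator (orth Q) := (Subgroup.closure_le _).2 (by
    rintro _ ⟨a, b, ha, hb, ha0, hab, hort, rfl⟩
    have := (H5.list_prod_mem_commutator_iff hfr.nondeg hcond (vs := [a, b]) (by simp [ha0, hab])).2
      ⟨by simp, by simp [hab, IsSquare.mul_self]⟩
    simpa using this)
  have hnot : ∀ vs : List V, (∀ v ∈ vs, Q v ≠ 0) → (¬ Even vs.length ∨ ¬ IsSquare (vs.map fun v => Q v).prod) →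
      g ≠ p * (vs.map (refl Q)).prod := by
    intro vs hvs hbad e1
    have : (vs.map (refl Q)).prod ∈ commutator (orth Q) := by
      rw [eq_inv_mul_of_mul_eq e1.symm]
      exact mul_mem (inv_mem (hpc hp)) hg
    obtain ⟨b1, b2⟩ := (H5.list_prod_mem_commutator_iff hfr.nondeg hcond hvs).1 this
    exact hbad.elim (fun h => h b1) (fun h => h b2)
  rcases hk with e1 | e1 | e1 | e1
  · rw [e1]; exact hp
  · exact absurd (by simpa using e1) (hnot [u₀] (by simpa using hQu0) (Or.inl (by simp)))
  · exact absurd (by simpa using e1) (hnot [a₀] (by simpa using hQa0) (Or.inl (by simp)))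
  · refine absurd (by simpa using e1) (hnot [u₀, a₀] (by simp [hQu0, hQa0]) (Or.inr ?_))
    intro hsq
    simp only [List.map_cons, List.map_nil, List.prod_cons, List.prod_nil, mul_one, hQu, hQa] at hsq
    obtain ⟨r, hr⟩ := hsq
    exact hν ⟨r / c, by have := hfr.ne_zero; field_simp; linear_combination hr⟩

/-- Overgroups of the signed permutations with an element fixing a frame vector and moving the frame. -/
theorem commutator_le_of_fix (hp : (Fintype.card F).Prime) {H : Subgroup (orth Q)}
    (hH : H ≤ commutator (orth Q)) (hM : ∀ g ∈ commutator (orth Q), H5.Mono e g → g ∈ H)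
    {g : orth Q} (hg : g ∈ H) (hgi : (g : V ≃ₗ[F] V) (e i) = e i) (hgm : ¬ H5.Mono e g) :
    commutator (orth Q) ≤ H := by
  classical
  have hodd : Odd (Fintype.card F) := Nat.odd_iff.2 (FiniteField.odd_card_of_char_ne_two fun hc => hfr.two_ne (by
    have := ringChar.Nat.cast_ringChar (R := F)
    rw [hc] at this
    exact_mod_cast this))
  obtain ⟨a, b, hab⟩ := exists_sq_add_eq hfr.two_ne (-1 : F)
  have q : QPar a b := ⟨hfr.two_ne, hab⟩
  obtain ⟨t, h⟩ := exists_fr q
  set φ := toOrth hfr i h with hφ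
  have hcomm : φ.range ≤ commutator (orth Q) := by
    rw [MonoidHom.range_eq_map, ← spGL_perfect hfr.two_ne, commutator_def, commutator_def,
      Subgroup.map_commutator]
    exact Subgroup.commutator_mono le_top le_top
  set M : Subgroup G4 := (H.comap φ).map (Cfsg.spGL 2 F).subtype with hMdef
  have hmemM : ∀ {x : Cfsg.spGL 2 F}, (x : G4) ∈ M → φ x ∈ H := by
    intro x hx
    obtain ⟨y, hy, e1⟩ := Subgroup.mem_map.1 hx
    rwa [← Subtype.ext e1]
  have B : Base t M :=
    { fr := h
      le := by rintro _ ⟨x, -, rfl⟩; exact x.2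
      mono_mem := fun x hx hm =>
        ⟨⟨x, hx⟩, hM _ (hcomm ⟨⟨x, hx⟩, rfl⟩) (toOrth_mono hfr i h ⟨x, hx⟩ hm), rfl⟩ }
  obtain ⟨γ, hγ⟩ := fix_mem_range hfr i h (hH hg) hgi
  have hγM : (γ : G4) ∈ M := ⟨γ, show φ γ ∈ H by rw [hφ, hγ]; exact hg, rfl⟩
  have htop : M = Cfsg.spGL 2 F := by
    rcases (B.loc q).mono_or_om hp hodd with hL | hom
    · exact absurd (hγ ▸ toOrth_mono hfr i h γ ((B.over_of_mono q hL).mono_of_mem hγM)) hgm
    · exact B.eq_sp q (B.pairs_eq_top q hp hodd hom)
  have hfix : ∀ x ∈ commutator (orth Q), (x : V ≃ₗ[F] V) (e i) = e i → x ∈ H := by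
    intro x hx hxi
    obtain ⟨y, rfl⟩ := fix_mem_range hfr i h hx hxi
    exact hmemM (by rw [htop]; exact y.2)
  set W := H5.perp Q (Submodule.span F {e i}) with hW
  have hperp : H5.perp Q W = Submodule.span F {e i} := H5.perp_perp hfr.nondeg _
  have hWU : W ⊓ H5.perp Q W = ⊥ := by
    rw [hperp, Submodule.eq_bot_iff]
    rintro x ⟨hx1, hx2⟩
    obtain ⟨r, rfl⟩ := Submodule.mem_span_singleton.1 hx2
    have e1 := (mem_perp_iff hfr i).1 hx1
    rw [map_smul, hfr.coord_self, smul_eq_mul, mul_one] at e1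
    rw [e1, zero_smul]
  have h6 : Module.finrank F V = 6 := by
    have hle : ⊤ ≤ Submodule.span F (Set.range e) := fun x _ => by
      rw [← hfr.expand x]
      exact Submodule.sum_mem _ fun k _ => Submodule.smul_mem _ _ (Submodule.subset_span ⟨k, rfl⟩)
    have hli : LinearIndependent F e := by
      rw [Fintype.linearIndependent_iff]
      intro g' hg' k
      have e1 := congrArg (coordAt Q e c k) hg'
      simpa [map_sum, hfr.coord_vec] using e1
    rw [Module.finrank_eq_card_basis (Module.Basis.mk hli hle), Fintype.card_fin]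
  have h1 : Module.finrank F (Submodule.span F {e i}) = 1 := finrank_span_singleton (hfr.ne_zero' i)
  have h5 : Module.finrank F W = 5 := by
    have := H5.finrank_perp_add hfr.nondeg (Submodule.span F {e i})
    rw [h1, h6, ← hW] at this
    omega
  have hn : 5 ≤ Module.finrank F V := by omega
  have hMW : ∀ x ∈ commutator (orth Q), H5.Preserves W x → x ∈ H := by
    intro x hx hP
    have hxi : (x : V ≃ₗ[F] V) (e i) = e i ∨ (x : V ≃ₗ[F] V) (e i) = -e i := by
      have hmemp : (x : V ≃ₗ[F] V) (e i) ∈ H5.perp Q W := by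
        intro z hz
        have hsur : ∃ w ∈ W, (x : V ≃ₗ[F] V) w = z := by
          have hinj : Function.Injective
              (((x : V ≃ₗ[F] V) : V →ₗ[F] V).restrict (p := W) (q := W) hP) := fun u w huw =>
            Subtype.ext ((x : V ≃ₗ[F] V).injective (congrArg Subtype.val huw))
          obtain ⟨⟨w, hw⟩, hw'⟩ := LinearMap.injective_iff_surjective.1 hinj ⟨z, hz⟩
          exact ⟨w, hw, congrArg Subtype.val hw'⟩
        obtain ⟨w, hw, rfl⟩ := hsur
        show polar Q ((x : V ≃ₗ[F] V) w) ((x : V ≃ₗ[F] V) (e i)) = 0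
        rw [H5.orth_polar, polar_comm]
        exact H5.mem_perp_span.1 hw
      rw [hperp] at hmemp
      obtain ⟨r, hr⟩ := Submodule.mem_span_singleton.1 hmemp
      have e1 := H5.orth_map x (e i)
      rw [← hr, QuadraticMap.map_smul, hfr.val, smul_eq_mul] at e1
      rcases mul_self_eq_one_iff.1 (mul_right_cancel₀ hfr.ne_zero (e1.trans (one_mul c).symm)) with h' | h'
      · left; rw [← hr, h', one_smul]
      · right; rw [← hr, h', neg_one_smul]
    rcases hxi with e1 | e1
    · exact hfix x hx e1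
    · have hs : H5.flipTwo Q e i (i.succAbove 0) ∈ H := hM _ (hfr.flip_mem hn) (hfr.mono_flip _ _)
      have hsi : (H5.flipTwo Q e i (i.succAbove 0) : V ≃ₗ[F] V) (e i) = -e i := by
        rw [H5.flipTwo, H5.orth_mul_apply, hfr.refl_other (Fin.succAbove_ne i 0), hfr.refl_self]
      have : H5.flipTwo Q e i (i.succAbove 0) * x ∈ H :=
        hfix _ (mul_mem (hH hs) hx) (by rw [H5.orth_mul_apply, e1, map_neg, hsi, neg_neg])
      simpa [← mul_assoc] using mul_mem (inv_mem hs) this
  obtain ⟨j, u, v, hij, huv⟩ : ∃ j u v : Fin 6, i ≠ j ∧ u ≠ v :=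
    ⟨i.succAbove 0, i.succAbove 1, i.succAbove 2, (Fin.succAbove_ne i 0).symm,
      fun he => absurd (Fin.succAbove_right_injective he) (by decide)⟩
  obtain ⟨u, v, hui, hvi, huj, hvj, huv⟩ : ∃ u v : Fin 6, u ≠ i ∧ v ≠ i ∧ u ≠ j ∧ v ≠ j ∧ u ≠ v :=
    (by decide : ∀ i j : Fin 6, ∃ u v : Fin 6, u ≠ i ∧ v ≠ i ∧ u ≠ j ∧ v ≠ j ∧ u ≠ v) i j
  set s := H5.dblSwap Q e i j u v with hs
  have hsH : s ∈ H := hM _ (hfr.dblSwap_mem hn hij huv) (hfr.mono_dblSwap hij huv)
  have hsj : (s : V ≃ₗ[F] V) (e j) = e i := by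
    rw [hs, H5.dblSwap, H5.orth_mul_apply, hfr.swap_other huj.symm hvj.symm, hfr.swap_right hij]
  refine H5.commutator_le_of_nondeg hfr.nondeg hWU hMW hn (by omega) (fun hex => ?_) hsH (fun hP => ?_)
    (fun hall => ?_)
  · rw [hperp, h1] at hex
    omega
  · have := (mem_perp_iff hfr i).1 (hP (e j) ((mem_perp_iff hfr i).2 (hfr.coord_other hij)))
    rw [hsj, hfr.coord_self] at this
    exact one_ne_zero this
  · have hle : Submodule.map ((s : V ≃ₗ[F] V) : V →ₗ[F] V) W ≤ H5.perp Q W := by
      rintro _ ⟨x, hx, rfl⟩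
      exact hall x hx
    have := Submodule.finrank_mono hle
    rw [LinearEquiv.finrank_map_eq, hperp, h1, h5] at this
    omega

end Cfsg.Agent.H1.SpC6
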