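import Cfsg.Agent.H1.SpC6.Dickson

/-!
Subgroups of `SL₂(p) × SL₂(p)` containing the binary monomial pairs.
-/

set_option autoImplicit false

open Matrix MatrixGroups

namespace Cfsg.Agent.H1.SpC6

open Cfsg.Agent.H6 (π tr sl2)

variable {F : Type*} [Field F]

/-- Two coordinates with squares summing to minus one. -/
structure QPar (a b : F) : Prop where
  two : (2 : F) ≠ 0
  eq : a ^ 2 + b ^ 2 = -1

variable {a b : F}

/-- The first quaternion unit. -/
def qi : SL(2, F) := sl2 0 1 (-1) 0 (by norm_num)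

/-- The second quaternion unit. -/
def qj (h : QPar a b) : SL(2, F) := sl2 a b b (-a) (by linear_combination -h.eq)

/-- The third quaternion unit. -/
def qk (h : QPar a b) : SL(2, F) := qi * qj h

/-- An element of order three cycling the units. -/
noncomputable def om (h : QPar a b) : SL(2, F) :=
  sl2 ((-1 + a + b) / 2) ((1 + b - a) / 2) ((-1 + b - a) / 2) ((-1 - a - b) / 2) (by
    have := h.two
    field_simp
    linear_combination -2 * h.eq)

theorem qi_sq : (qi : SL(2, F)) * qi = -1 := by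
  apply H6.sl2_ext <;> simp [qi, H6.sl2_mul, H6.sl2_neg]

theorem qj_sq (h : QPar a b) : qj h * qj h = -1 := by
  apply H6.sl2_ext <;> simp [qj, H6.sl2_mul, H6.sl2_neg] <;>
    first | linear_combination h.eq | linear_combination -h.eq | ring

theorem qj_qi (h : QPar a b) : qj h * qi = -(qi * qj h) := by
  apply H6.sl2_ext <;> simp [qi, qj, H6.sl2_mul, H6.sl2_neg]

theorem om_qi (h : QPar a b) : om h * qi = qk h * om h := by
  have := h.two
  apply H6.sl2_ext <;> simp [om, qi, qk, qj, H6.sl2_mul] <;> field_simp <;>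
    first | linear_combination h.eq | linear_combination -h.eq

theorem om_qk (h : QPar a b) : om h * qk h = qj h * om h := by
  have := h.two
  apply H6.sl2_ext <;> simp [om, qi, qk, qj, H6.sl2_mul] <;> field_simp <;>
    first | linear_combination h.eq | linear_combination -h.eq | ring

theorem om_cube (h : QPar a b) : om h * om h * om h = 1 := by
  have := h.two
  have e : om h * om h = (om h)⁻¹ := by
    apply H6.sl2_ext <;>
      simp [om, H6.sl2_mul, H6.sl2_inv_00, H6.sl2_inv_01, H6.sl2_inv_10, H6.sl2_inv_11] <;>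
      field_simp <;> first | linear_combination 2 * h.eq | linear_combination -2 * h.eq | ring
  rw [e, inv_mul_cancel]

/-- The preimage of the centraliser of the images of the units. -/
def q8 (h : QPar a b) : Subgroup SL(2, F) :=
  (Subgroup.centralizer ({π qi, π (qj h)} : Set PSL(2, F))).comap π

theorem mem_q8 (h : QPar a b) {g : SL(2, F)} :
    g ∈ q8 h ↔ π g * π qi = π qi * π g ∧ π g * π (qj h) = π (qj h) * π g := by
  simp [q8, Subgroup.mem_centralizer_iff, eq_comm]

theorem q8_cases (h : QPar a b) {g : SL(2, F)} (hg : g ∈ q8 h) :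
    π g = 1 ∨ π g = π qi ∨ π g = π (qj h) ∨ π g = π (qk h) := by
  obtain ⟨h1, h2⟩ := (mem_q8 h).1 hg
  rw [← map_mul, ← map_mul, H6.π_eq_iff] at h1 h2
  have hd := H6.sl2_det g
  have e2 := h.two
  rcases h1 with h1 | h1
  · have a1 : g 1 1 = g 0 0 := by
      have := congrArg (fun x : SL(2, F) => x 0 1) h1
      simpa [qi, H6.sl2_mul] using this.symm
    have a2 : g 1 0 = -g 0 1 := by
      have := congrArg (fun x : SL(2, F) => x 0 0) h1
      simpa [qi, H6.sl2_mul] using this.symm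
    rw [a1, a2] at hd
    rcases h2 with h2 | h2
    · have c0 := congrArg (fun x : SL(2, F) => x 0 1) h2
      have c1 := congrArg (fun x : SL(2, F) => x 0 0) h2
      simp [qj, H6.sl2_mul, a1, a2] at c0 c1
      have z : g 0 1 = 0 := by
        have : (2 * (a ^ 2 + b ^ 2)) * g 0 1 = 0 := by linear_combination -a * c0 + b * c1
        rw [h.eq] at this
        simpa [e2] using this
      left
      refine H6.π_eq_one_iff_isScal.2 ⟨z, by rw [a2, z, neg_zero], a1.symm⟩
    · have c0 := congrArg (fun x : SL(2, F) => x 0 0) h2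
      have c1 := congrArg (fun x : SL(2, F) => x 0 1) h2
      simp [qj, H6.sl2_mul, H6.sl2_neg, a1, a2] at c0 c1
      have z : g 0 0 = 0 := by
        have : (2 * (a ^ 2 + b ^ 2)) * g 0 0 = 0 := by linear_combination a * c0 + b * c1
        rw [h.eq] at this
        simpa [e2] using this
      rw [z] at hd a1
      right; left
      refine H6.π_eq_iff.2 ?_
      rcases mul_self_eq_one_iff.1 (show g 0 1 * g 0 1 = 1 by linear_combination hd) with e | e
      · left; apply H6.sl2_ext <;> simp [qi, z, a1, a2, e]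
      · right; apply H6.sl2_ext <;> simp [qi, H6.sl2_neg, z, a1, a2, e]
  · have a1 : g 1 1 = -g 0 0 := by
      have h' := congrArg (fun x : SL(2, F) => x 0 1) h1
      simp [qi, H6.sl2_mul, H6.sl2_neg] at h'
      linear_combination h'
    have a2 : g 1 0 = g 0 1 := by
      have h' := congrArg (fun x : SL(2, F) => x 0 0) h1
      simp [qi, H6.sl2_mul, H6.sl2_neg] at h'
      linear_combination -h'
    rw [a1, a2] at hd
    right; right
    rcases h2 with h2 | h2
    · have c0 := congrArg (fun x : SL(2, F) => x 0 1) h2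
      simp [qj, H6.sl2_mul, a1, a2] at c0
      have c : g 0 0 * b = g 0 1 * a := by
        refine mul_left_cancel₀ e2 ?_
        linear_combination c0
      set l := -(g 0 0 * a + g 0 1 * b) with hl
      have p0 : g 0 0 = l * a := by linear_combination (g 0 0) * h.eq - b * c + a * hl
      have q0 : g 0 1 = l * b := by linear_combination (g 0 1) * h.eq + a * c + b * hl
      left
      refine H6.π_eq_iff.2 ?_
      rw [p0, q0] at hd
      rcases mul_self_eq_one_iff.1 (show l * l = 1 by linear_combination hd + l * l * h.eq) with e | e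
      · left; apply H6.sl2_ext <;> simp [qj, a1, a2, p0, q0, e]
      · right; apply H6.sl2_ext <;> simp [qj, H6.sl2_neg, a1, a2, p0, q0, e]
    · have c0 := congrArg (fun x : SL(2, F) => x 0 0) h2
      simp [qj, H6.sl2_mul, H6.sl2_neg, a1, a2] at c0
      have c : g 0 0 * a + g 0 1 * b = 0 := by
        refine mul_left_cancel₀ e2 ?_
        linear_combination c0
      set l := g 0 1 * a - g 0 0 * b with hl
      have p0 : g 0 0 = l * b := by linear_combination (g 0 0) * h.eq - a * c - b * hl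
      have q0 : g 0 1 = -(l * a) := by linear_combination (g 0 1) * h.eq - b * c + a * hl
      right
      refine H6.π_eq_iff.2 ?_
      rw [p0, q0] at hd
      rcases mul_self_eq_one_iff.1 (show l * l = 1 by linear_combination hd + l * l * h.eq) with e | e
      · left; apply H6.sl2_ext <;> simp [qk, qi, qj, H6.sl2_mul, a1, a2, p0, q0, e]
      · right; apply H6.sl2_ext <;> simp [qk, qi, qj, H6.sl2_mul, H6.sl2_neg, a1, a2, p0, q0, e]

theorem neg_one_mem_q8 (h : QPar a b) : (-1 : SL(2, F)) ∈ q8 h := by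
  rw [mem_q8, H6.π_eq_one_iff.2 (Or.inr rfl)]
  simp

theorem qi_mem (h : QPar a b) : qi ∈ q8 h := by
  refine (mem_q8 h).2 ⟨rfl, ?_⟩
  rw [← map_mul, ← map_mul, qj_qi, H6.π_neg]

theorem qj_mem (h : QPar a b) : qj h ∈ q8 h := by
  refine (mem_q8 h).2 ⟨?_, rfl⟩
  rw [← map_mul, ← map_mul, qj_qi, H6.π_neg]

theorem qk_mem (h : QPar a b) : qk h ∈ q8 h := mul_mem (qi_mem h) (qj_mem h)

/-- The element normalises the units up to sign. -/
def Nrm (h : QPar a b) (x : SL(2, F)) : Prop :=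
  x * qi * x⁻¹ ∈ q8 h ∧ x * qj h * x⁻¹ ∈ q8 h

theorem mem_q8_of_π_eq (h : QPar a b) {g g' : SL(2, F)} (e : π g = π g') (hg : g' ∈ q8 h) : g ∈ q8 h := by
  rw [mem_q8] at hg ⊢
  rwa [e]

theorem Nrm.conj_mem {h : QPar a b} {x : SL(2, F)} (hx : Nrm h x) {g : SL(2, F)} (hg : g ∈ q8 h) :
    x * g * x⁻¹ ∈ q8 h := by
  have key : ∀ {g'}, π g = π g' → x * g' * x⁻¹ ∈ q8 h → x * g * x⁻¹ ∈ q8 h := fun e hm =>
    mem_q8_of_π_eq h (by rw [map_mul, map_mul, map_mul, map_mul, e]) hm
  rcases q8_cases h hg with e | e | e | e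
  · exact key (g' := 1) (by rw [e, map_one]) (by rw [mul_one, mul_inv_cancel]; exact one_mem _)
  · exact key e hx.1
  · exact key e hx.2
  · refine key e ?_
    rw [show x * qk h * x⁻¹ = x * qi * x⁻¹ * (x * qj h * x⁻¹) by rw [qk]; group]
    exact mul_mem hx.1 hx.2

theorem nrm_of_mem (h : QPar a b) {x : SL(2, F)} (hx : x ∈ q8 h) : Nrm h x :=
  ⟨mul_mem (mul_mem hx (qi_mem h)) (inv_mem hx), mul_mem (mul_mem hx (qj_mem h)) (inv_mem hx)⟩

theorem nrm_om (h : QPar a b) : Nrm h (om h) := by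
  have e1 : om h * qi * (om h)⁻¹ = qk h := by rw [om_qi, mul_inv_cancel_right]
  have e2 : om h * qk h * (om h)⁻¹ = qj h := by rw [om_qk, mul_inv_cancel_right]
  refine ⟨by rw [e1]; exact qk_mem h, ?_⟩
  have e3 : qj h = -(qi * qk h) := by
    rw [qk, ← mul_assoc, qi_sq, neg_one_mul, neg_neg]
  rw [e3, mul_neg, neg_mul, show om h * (qi * qk h) * (om h)⁻¹ = om h * qi * (om h)⁻¹ * (om h * qk h * (om h)⁻¹) by
    group, e1, e2]
  refine mem_q8_of_π_eq h (H6.π_neg _) (mul_mem (qk_mem h) (qj_mem h))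

theorem π_qi_ne_one (h : QPar a b) : π (qi : SL(2, F)) ≠ 1 := fun e => by
  have := (H6.π_eq_one_iff_isScal.1 e).1
  simp [qi] at this

theorem perm_four_comm : ∀ u g : Equiv.Perm (Fin 4), u * u = 1 → Equiv.Perm.sign u = 1 →
    g * u * g⁻¹ * u = u * (g * u * g⁻¹) := by
  decide +kernel

theorem perm_four_gen : ∀ u : Equiv.Perm (Fin 4), u * u = 1 → Equiv.Perm.sign u = 1 → u ≠ 1 →
    ∀ o : Equiv.Perm (Fin 4), o * o * o = 1 → o * u * o⁻¹ ≠ u →
    ∀ z : Equiv.Perm (Fin 4), ¬ (z * u = u * z ∧ z * (o * u * o⁻¹) = o * u * o⁻¹ * z) →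
    o ∈ ([z, z * z, z * (o * z⁻¹ * o⁻¹), z * (o * z⁻¹ * o⁻¹) * (z * (o * z⁻¹ * o⁻¹))].product
      [1, u, o * u * o⁻¹, u * (o * u * o⁻¹)]).map fun q => q.1 * q.2 := by
  decide +kernel

/-- What is used about the subgroup of pairs. -/
structure Loc (h : QPar a b) (L : Subgroup (SL(2, F) × SL(2, F))) : Prop where
  swap : ∀ x y, (x, y) ∈ L → (y, x) ∈ L
  quat : ∀ g ∈ q8 h, ((1 : SL(2, F)), g) ∈ L
  diag : ∀ x, Nrm h x → (x, x) ∈ L

variable {h : QPar a b} {L : Subgroup (SL(2, F) × SL(2, F))}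

/-- The second projection. -/
abbrev proj (L : Subgroup (SL(2, F) × SL(2, F))) : Subgroup SL(2, F) :=
  L.map (MonoidHom.snd SL(2, F) SL(2, F))

/-- The kernel part of the second factor. -/
abbrev kern (L : Subgroup (SL(2, F) × SL(2, F))) : Subgroup SL(2, F) :=
  L.comap (MonoidHom.inr SL(2, F) SL(2, F))

theorem mem_kern {g : SL(2, F)} : g ∈ kern L ↔ ((1 : SL(2, F)), g) ∈ L := Iff.rfl

theorem kern_le : kern L ≤ proj L := fun g hg => ⟨(1, g), hg, rfl⟩

theorem kern_normal {g : SL(2, F)} (hg : g ∈ proj L) {k : SL(2, F)} (hk : k ∈ kern L) :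
    g * k * g⁻¹ ∈ kern L := by
  obtain ⟨⟨x, y⟩, hxy, rfl⟩ := hg
  have := mul_mem (mul_mem hxy hk) (inv_mem hxy)
  simpa [mem_kern] using this

theorem Loc.snd_mem {x y : SL(2, F)} (hxy : (x, y) ∈ L) : y ∈ proj L := ⟨(x, y), hxy, rfl⟩

theorem Loc.fst_mem (hL : Loc h L) {x y : SL(2, F)} (hxy : (x, y) ∈ L) : x ∈ proj L :=
  Loc.snd_mem (hL.swap x y hxy)

theorem Loc.om_mem (hL : Loc h L) : om h ∈ proj L := Loc.snd_mem (hL.diag _ (nrm_om h))

theorem Loc.qi_mem_kern (hL : Loc h L) : qi ∈ kern L := hL.quat _ (qi_mem h)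

theorem Loc.neg_mem_kern (hL : Loc h L) : (-1 : SL(2, F)) ∈ kern L := hL.quat _ (neg_one_mem_q8 h)

theorem tr_comm_om (h : QPar a b) : tr (om h * qi * (om h)⁻¹ * qi⁻¹) = 0 := by
  rw [om_qi, mul_inv_cancel_right]
  simp [tr, qk, qi, qj, H6.sl2_mul, H6.sl2_inv_00, H6.sl2_inv_01, H6.sl2_inv_10, H6.sl2_inv_11]

section Fintype

variable [Fintype F] (hp : (Fintype.card F).Prime) (hodd : Odd (Fintype.card F))

include hp hodd in
theorem dichotomy (h : QPar a b) {G : Subgroup SL(2, F)} (hi : qi ∈ G) (ho : om h ∈ G) :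
    Small G ∨ (5 ≤ Fintype.card F ∧ Large G) := by
  refine small_or_large hp hodd (by rw [← qi_sq]; exact mul_mem hi hi) ho hi ?_ ?_ ?_
  · rw [pow_succ, pow_two, ← map_mul, ← map_mul, om_cube, map_one]
  · rw [tr_comm_om]; simp
  · rw [tr_comm_om]
    intro e
    exact mul_ne_zero h.two h.two (by linear_combination -e)

theorem Small.images (h : QPar a b) {G : Subgroup SL(2, F)} (hi : qi ∈ G) (ho : om h ∈ G) :
    ∃ u o : G.map π, (u : PSL(2, F)) = π qi ∧ (o : PSL(2, F)) = π (om h) ∧ u * u = 1 ∧ o * o * o = 1 ∧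
      (∀ f : G.map π →* Equiv.Perm (Fin 4), Equiv.Perm.sign (f u) = 1) ∧
      ((o * u * o⁻¹ : G.map π) : PSL(2, F)) = π (qk h) ∧ (o * u * o⁻¹ * u : G.map π) = o * (o * u * o⁻¹) * o⁻¹ := by
  set u : G.map π := ⟨π qi, Subgroup.mem_map_of_mem _ hi⟩
  set o : G.map π := ⟨π (om h), Subgroup.mem_map_of_mem _ ho⟩
  have hk : ((o * u * o⁻¹ : G.map π) : PSL(2, F)) = π (qk h) := by
    show π (om h) * π qi * (π (om h))⁻¹ = _
    rw [← map_mul, om_qi, map_mul, mul_inv_cancel_right]
  have hj : (o * u * o⁻¹ * u : G.map π) = o * (o * u * o⁻¹) * o⁻¹ := by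
    apply Subtype.ext
    rw [Subgroup.coe_mul, Subgroup.coe_mul (G.map π) (o * (o * u * o⁻¹)), Subgroup.coe_mul (G.map π) o, hk]
    show π (qk h) * π qi = π (om h) * π (qk h) * (π (om h))⁻¹
    rw [← map_mul, ← map_mul, om_qk, map_mul π (qj h), mul_inv_cancel_right, qk, mul_assoc, qj_qi, mul_neg,
      ← mul_assoc, qi_sq, neg_one_mul, neg_neg]
  refine ⟨u, o, rfl, rfl, Subtype.ext ?_, Subtype.ext ?_, fun f => ?_, hk, hj⟩
  · show π qi * π qi = 1
    rw [← map_mul, qi_sq, H6.π_neg, map_one]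
  · show π (om h) * π (om h) * π (om h) = 1
    rw [← map_mul, ← map_mul, om_cube, map_one]
  · have e := congrArg (fun x => Equiv.Perm.sign (f x)) hj
    simp only [map_mul, map_inv] at e
    rcases Int.units_eq_one_or (Equiv.Perm.sign (f u)) with e1 | e1 <;>
      rcases Int.units_eq_one_or (Equiv.Perm.sign (f o)) with e2 | e2 <;>
      simp [e1, e2] at e ⊢

/-- In a small group every element normalises the units. -/
theorem Small.nrm (h : QPar a b) {G : Subgroup SL(2, F)} (hG : Small G) (hi : qi ∈ G) (ho : om h ∈ G)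
    {g : SL(2, F)} (hg : g ∈ G) : Nrm h g := by
  obtain ⟨f, hf⟩ := hG.exists_hom
  obtain ⟨u, o, hu, hoe, hu2, -, hs, hk, hj⟩ := Small.images h hi ho
  have comm : ∀ x y : G.map π, x * u * x⁻¹ * (y * u * y⁻¹) = y * u * y⁻¹ * (x * u * x⁻¹) := by
    intro x y
    apply hf
    simp only [map_mul, map_inv]
    have e := perm_four_comm (f u) ((f y)⁻¹ * f x) (by rw [← map_mul, hu2, map_one]) (hs f)
    calc f x * f u * (f x)⁻¹ * (f y * f u * (f y)⁻¹)
        = f y * ((f y)⁻¹ * f x * f u * ((f y)⁻¹ * f x)⁻¹ * f u) * (f y)⁻¹ := by group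
      _ = f y * (f u * ((f y)⁻¹ * f x * f u * ((f y)⁻¹ * f x)⁻¹)) * (f y)⁻¹ := by rw [e]
      _ = _ := by group
  have hjv : ((o * o * u * (o * o)⁻¹ : G.map π) : PSL(2, F)) = π (qj h) := by
    rw [show o * o * u * (o * o)⁻¹ = o * (o * u * o⁻¹) * o⁻¹ by group, Subgroup.coe_mul, Subgroup.coe_mul, hk,
      Subgroup.coe_inv, hoe, ← map_mul, om_qk, map_mul, mul_inv_cancel_right]
  have main : ∀ (x : G.map π) (y : SL(2, F)), π y = ((x * u * x⁻¹ : G.map π) : PSL(2, F)) → y ∈ q8 h := by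
    intro x y hy
    rw [mem_q8, hy]
    refine ⟨?_, ?_⟩
    · have e := congrArg Subtype.val (comm x 1)
      simp only [one_mul, inv_one, mul_one, Subgroup.coe_mul, hu] at e
      simpa only [Subgroup.coe_mul, hu] using e
    · rw [← hjv]
      exact congrArg Subtype.val (comm x (o * o))
  set x : G.map π := ⟨π g, Subgroup.mem_map_of_mem _ hg⟩
  refine ⟨main x _ ?_, main (x * (o * o)) _ ?_⟩
  · rw [map_mul, map_mul, map_inv, Subgroup.coe_mul, Subgroup.coe_mul, Subgroup.coe_inv, hu]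
  · rw [show x * (o * o) * u * (x * (o * o))⁻¹ = x * (o * o * u * (o * o)⁻¹) * x⁻¹ by group,
      Subgroup.coe_mul (G.map π) (x * _), Subgroup.coe_mul (G.map π) x, hjv, map_mul, map_mul, map_inv]
    rfl

/-- A normal part of a small group off the units contains the element of order three. -/
theorem Small.om_mem (h : QPar a b) {G K : Subgroup SL(2, F)} (hG : Small G) (ho : om h ∈ G) (hle : K ≤ G)
    (hneg : (-1 : SL(2, F)) ∈ K) (hn : ∀ g ∈ G, ∀ k ∈ K, g * k * g⁻¹ ∈ K) (hi : qi ∈ K)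
    {z : SL(2, F)} (hz : z ∈ K) (hz8 : z ∉ q8 h) : om h ∈ K := by
  obtain ⟨f, hf⟩ := hG.exists_hom
  obtain ⟨u, o, hu, hoe, hu2, ho3, hs, hk, hj⟩ := Small.images h (hle hi) ho
  set K' : Subgroup (G.map π) := (K.map π).subgroupOf (G.map π)
  set z' : G.map π := ⟨π z, Subgroup.mem_map_of_mem _ (hle hz)⟩
  have hK : ∀ {x : G.map π}, x ∈ K' → o * x * o⁻¹ ∈ K' := fun {x} hx => by
    obtain ⟨k, hk', e⟩ := Subgroup.mem_subgroupOf.1 hx
    refine Subgroup.mem_subgroupOf.2 ⟨om h * k * (om h)⁻¹, hn _ ho k hk', ?_⟩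
    rw [map_mul, map_mul, map_inv, e, Subgroup.coe_mul, Subgroup.coe_mul, Subgroup.coe_inv, hoe]
  have hu' : u ∈ K' := Subgroup.mem_subgroupOf.2 ⟨qi, hi, hu.symm⟩
  have hz' : z' ∈ K' := Subgroup.mem_subgroupOf.2 ⟨z, hz, rfl⟩
  have hu1 : u ≠ 1 := fun e => π_qi_ne_one h (by rw [← hu, e]; rfl)
  have hou : o * u * o⁻¹ ≠ u := fun e => hu1 (by
    rw [e, hu2, e] at hj
    exact hj.symm)
  have hnot : ¬ (f z' * f u = f u * f z' ∧ f z' * (f o * f u * (f o)⁻¹) = f o * f u * (f o)⁻¹ * f z') := by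
    rintro ⟨e1, e2⟩
    refine hz8 ((mem_q8 h).2 ⟨?_, ?_⟩)
    · rw [← map_mul, ← map_mul] at e1
      simpa [hu] using congrArg Subtype.val (hf e1)
    · have e3 : f z' * (f (o * u * o⁻¹ * u)) = f (o * u * o⁻¹ * u) * f z' := by
        simp only [map_mul, map_inv]
        rw [← mul_assoc (f z'), e2, mul_assoc _ (f z'), e1]
        simp only [mul_assoc]
      rw [← map_mul, ← map_mul] at e3
      have e4 := congrArg Subtype.val (hf e3)
      have hjv : ((o * u * o⁻¹ * u : G.map π) : PSL(2, F)) = π (qj h) := by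
        rw [hj, Subgroup.coe_mul, Subgroup.coe_mul, hk, Subgroup.coe_inv, hoe, ← map_mul, om_qk, map_mul,
          mul_inv_cancel_right]
      simpa [Subgroup.coe_mul, ← hjv] using e4
  have hmem := perm_four_gen (f u) (by rw [← map_mul, hu2, map_one]) (hs f)
    (fun e => hu1 (hf (e.trans (map_one f).symm))) (f o) (by rw [← map_mul, ← map_mul, ho3, map_one])
    (fun e => hou (hf (by rw [map_mul, map_mul, map_inv]; exact e))) (f z') hnot
  obtain ⟨⟨w, v⟩, hwv, e⟩ := List.mem_map.1 hmem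
  obtain ⟨hw, hv⟩ := List.pair_mem_product.1 hwv
  replace e := e.symm
  have hc : z' * (o * z'⁻¹ * o⁻¹) ∈ K' := mul_mem hz' (hK (inv_mem hz'))
  have hwmem : ∃ w' ∈ K', f w' = w := by
    simp only [List.mem_cons, List.not_mem_nil, or_false] at hw
    rcases hw with rfl | rfl | rfl | rfl
    · exact ⟨_, hz', rfl⟩
    · exact ⟨_, mul_mem hz' hz', map_mul _ _ _⟩
    · exact ⟨_, hc, by simp [map_mul, map_inv]⟩
    · exact ⟨_, mul_mem hc hc, by simp [map_mul, map_inv]⟩
  have hvmem : ∃ v' ∈ K', f v' = v := by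
    simp only [List.mem_cons, List.not_mem_nil, or_false] at hv
    rcases hv with rfl | rfl | rfl | rfl
    · exact ⟨1, one_mem _, map_one f⟩
    · exact ⟨_, hu', rfl⟩
    · exact ⟨_, hK hu', by simp [map_mul, map_inv]⟩
    · exact ⟨_, mul_mem hu' (hK hu'), by simp [map_mul, map_inv]⟩
  obtain ⟨w', hw', rfl⟩ := hwmem
  obtain ⟨v', hv', rfl⟩ := hvmem
  rw [← map_mul] at e
  obtain ⟨k, hk', e'⟩ := Subgroup.mem_subgroupOf.1 (hf e ▸ mul_mem hw' hv' : o ∈ K')
  rw [hoe] at e'
  rcases H6.π_eq_iff.1 e' with rfl | e''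
  · exact hk'
  · have := mul_mem hneg hk'
    rwa [e'', neg_one_mul, neg_neg] at this

include hp hodd in
/-- Either every pair is monomial or the element of order three is in the kernel part. -/
theorem Loc.mono_or_om (hL : Loc h L) :
    (∀ x y, (x, y) ∈ L → Nrm h x ∧ x⁻¹ * y ∈ q8 h) ∨ om h ∈ kern L := by
  rcases dichotomy hp hodd h (kern_le hL.qi_mem_kern) hL.om_mem with hs | ⟨h5, hl⟩
  · by_cases hom : om h ∈ kern L
    · exact Or.inr hom
    refine Or.inl fun x y hxy => ?_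
    have hx : Nrm h x := hs.nrm h (kern_le hL.qi_mem_kern) hL.om_mem (hL.fst_mem hxy)
    refine ⟨hx, ?_⟩
    by_contra hz
    refine hom (hs.om_mem h hL.om_mem kern_le hL.neg_mem_kern (fun g hg k hk => kern_normal hg hk)
      hL.qi_mem_kern (z := x⁻¹ * y) ?_ hz)
    have := mul_mem (inv_mem (hL.diag x hx)) hxy
    simpa [mem_kern] using this
  · refine Or.inr ?_
    rw [hl.eq_of_normal h5 kern_le hL.neg_mem_kern (fun g hg k hk => kern_normal hg hk) hL.qi_mem_kern
      (π_qi_ne_one h)]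
    exact hL.om_mem

theorem Loc.eq_top_of_kern (hL : Loc h L) (hk : kern L = ⊤) : L = ⊤ := by
  refine eq_top_iff.2 fun p _ => ?_
  obtain ⟨x, y⟩ := p
  have hy : ((1 : SL(2, F)), y) ∈ L := mem_kern.1 (hk ▸ Subgroup.mem_top y)
  have hx : (x, (1 : SL(2, F))) ∈ L := hL.swap _ _ (mem_kern.1 (hk ▸ Subgroup.mem_top x))
  simpa using mul_mem hx hy

include hp hodd in
/-- With the element of order three and a general element the subgroup is everything. -/
theorem Loc.eq_top (hL : Loc h L) (hom : om h ∈ kern L)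
    (hg : Fintype.card F = 3 ∨
      ∃ g ∈ proj L, ((Fintype.card F = 5 ∨ Fintype.card F = 7) ∧ ¬ Nrm h g) ∨ Bad g) : L = ⊤ := by
  refine hL.eq_top_of_kern ?_
  rcases hg with h3 | ⟨g, hg, hh⟩
  · rcases dichotomy hp hodd h hL.qi_mem_kern hom with hs | ⟨h5, -⟩
    · refine eq_top_of_map_eq_top hL.neg_mem_kern (Subgroup.eq_top_of_le_card _ ?_)
      have h12 : 12 ≤ Nat.card ((kern L).map π) := by
        rcases hs with ⟨⟨e⟩⟩ | ⟨⟨e⟩⟩
        · rw [Nat.card_congr e.toEquiv, nat_card_alternatingGroup]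
          norm_num [Nat.factorial]
        · rw [Nat.card_congr e.toEquiv, Nat.card_perm]
          norm_num [Nat.factorial]
      rw [H6.card_psl2 h3]
      exact le_trans (by norm_num) h12
    · omega
  · rcases dichotomy hp hodd h (kern_le hL.qi_mem_kern) hL.om_mem with hs | ⟨h5, hl⟩
    · exfalso
      rcases hh with ⟨-, hh⟩ | hh
      · exact hh (hs.nrm h (kern_le hL.qi_mem_kern) hL.om_mem hg)
      · exact hs.not_bad hg hh
    · have htop : proj L = ⊤ := by
        rcases hh with ⟨hh, -⟩ | hh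
        · exact hl.eq_top_of_le_seven (kern_le hL.neg_mem_kern) hh
        · exact hl.eq_top_of_bad hg hh
      rw [hl.eq_of_normal h5 kern_le hL.neg_mem_kern (fun g hg k hk => kern_normal hg hk) hL.qi_mem_kern
        (π_qi_ne_one h)]
      exact htop

end Fintype

end Cfsg.Agent.H1.SpC6
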