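import Cfsg.Agent.H1.SpC6.Big
import Cfsg.Agent.H98.MaximalSpWreath

/-!
Normalisers of groups `2^(1+4)` of minus type are maximal in `Sp₄(p)`.
-/

set_option autoImplicit false

open Matrix MatrixGroups

namespace Cfsg.Agent.H1.SpC6

variable {F : Type*} [Field F]

local notation "M4" => Matrix (Fin 2 ⊕ Fin 2) (Fin 2 ⊕ Fin 2) F
local notation "G4" => GL (Fin 2 ⊕ Fin 2) F

variable {t : Fin 5 → GL (Fin 2 ⊕ Fin 2) F} {M : Subgroup (GL (Fin 2 ⊕ Fin 2) F)} {a b : F}

/-- An element fixing the last line is in a pair's image, possibly after the swap. -/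
theorem Fr.fix_four (h : Fr t) (q : QPar a b) {g : G4} (hg : g ∈ Cfsg.spGL 2 F)
    (e : Pm (g * t 4 * g⁻¹) (t 4)) :
    (∃ x y, g = h.theta q (x, y)) ∨ ∃ x y, g = t 3 * h.theta q (x, y) := by
  rcases e with e | e
  · exact Or.inl (h.exists_theta q hg e)
  · right
    obtain ⟨x, y, hxy⟩ := h.exists_theta q (g := t 3 * g) (mul_mem (h.sp 3) hg) (by
      rw [show t 3 * g * t 4 * (t 3 * g)⁻¹ = t 3 * (g * t 4 * g⁻¹) * (t 3)⁻¹ by group, e, mul_neg, neg_mul,
        h.conj_eq_self_or_neg, if_neg (by decide), neg_neg])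
    exact ⟨x, y, by rw [← hxy, ← mul_assoc, h.sq', one_mul]⟩

/-- With monomial pairs the subgroup is an overgroup with monomial stabilisers. -/
theorem Base.over_of_mono (B : Base t M) (q : QPar a b)
    (hL : ∀ x y, (x, y) ∈ pairs B.fr q M → Nrm q x ∧ x⁻¹ * y ∈ q8 q) : Over t M := by
  have four : ∀ m ∈ M, Pm (m * t 4 * m⁻¹) (t 4) → MonoAct t m := by
    intro m hm e
    rcases B.fr.fix_four q (B.le hm) e with ⟨x, y, rfl⟩ | ⟨x, y, rfl⟩
    · exact B.fr.theta_mono q (hL x y hm).1 (hL x y hm).2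
    · have : B.fr.theta q (x, y) ∈ M := by simpa using mul_mem (inv_mem (B.t_mem 3)) hm
      exact (B.fr.mono_t 3).mul (B.fr.theta_mono q (hL x y this).1 (hL x y this).2)
  refine ⟨B.fr, B.le, B.mono_mem, fun m hm i e => ?_⟩
  by_cases hi : i = 4
  · exact four m hm (hi ▸ e)
  obtain ⟨r, hr4, hri⟩ : ∃ r : Fin 5, r ≠ 4 ∧ r ≠ i := (by decide : ∀ i : Fin 5, ∃ r, r ≠ 4 ∧ r ≠ i) i
  obtain ⟨π, hπ, h4, hi', hr', hd⟩ := B.fr.exists_three (Ne.symm hi) hri.symm (Ne.symm hr4)
  have hπm : MonoAct t π := fun j => by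
    by_cases h1 : j = 4
    · exact ⟨i, Or.inl (h1 ▸ h4)⟩
    by_cases h2 : j = i
    · exact ⟨r, Or.inl (h2 ▸ hi')⟩
    by_cases h3 : j = r
    · exact ⟨4, Or.inl (h3 ▸ hr')⟩
    exact ⟨j, Or.inl (hd j h1 h2 h3)⟩
  have hπM := B.mono_mem π hπ hπm
  have e1 := e.conj π⁻¹
  rw [← h4, inv_inv] at e1
  have := four (π⁻¹ * m * π) (mul_mem (mul_mem (inv_mem hπM) hm) hπM) (by
    rw [show π⁻¹ * m * π * t 4 * (π⁻¹ * m * π)⁻¹ = π⁻¹ * (m * (π * t 4 * π⁻¹) * m⁻¹) * π by group]
    rwa [show π⁻¹ * (π * t 4 * π⁻¹) * π = t 4 by group] at e1)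
  have h' := (hπm.mul this).mul (B.fr.mono_inv hπm)
  rwa [show π * (π⁻¹ * m * π) * π⁻¹ = m by group] at h'

/-- The eigenspaces of the last member. -/
def eigDec (t : Fin 5 → G4) : Fin 2 → Submodule F (Fin 2 ⊕ Fin 2 → F) := fun i =>
  LinearMap.ker (Matrix.toLin' ((t 4 : M4) - ((![1, -1] : Fin 2 → F) i) • 1))

theorem mem_eigDec {i : Fin 2} {v : Fin 2 ⊕ Fin 2 → F} :
    v ∈ eigDec t i ↔ (t 4 : M4) *ᵥ v = ((![1, -1] : Fin 2 → F) i) • v := by
  simp [eigDec, Matrix.sub_mulVec, sub_eq_zero, Matrix.smul_mulVec]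

theorem Fr.eig_split (h : Fr t) (v : Fin 2 ⊕ Fin 2 → F) :
    (2 : F)⁻¹ • (v + (t 4 : M4) *ᵥ v) ∈ eigDec t 0 ∧ (2 : F)⁻¹ • (v - (t 4 : M4) *ᵥ v) ∈ eigDec t 1 := by
  constructor <;>
  · rw [mem_eigDec]
    simp [Matrix.mulVec_add, Matrix.mulVec_sub, Matrix.mulVec_smul, Matrix.mulVec_mulVec, h.sq, add_comm,
      ← smul_neg]

theorem Fr.isMDecomposition (h : Fr t) : Cfsg.Geo.IsMDecomposition 2 (eigDec t) := by
  have hdis : Disjoint (eigDec t 0) (eigDec t 1) := by
    rw [Submodule.disjoint_def]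
    intro v h0 h1
    rw [mem_eigDec] at h0 h1
    rw [h0] at h1
    have : (2 : F) • v = 0 := by
      have e : v = -v := by simpa using h1
      rw [two_smul]; exact add_eq_zero_iff_eq_neg.2 e
    exact (smul_eq_zero.1 this).resolve_left h.two
  have hsup : eigDec t 0 ⊔ eigDec t 1 = ⊤ := by
    refine eq_top_iff.2 fun v _ => ?_
    obtain ⟨h0, h1⟩ := h.eig_split v
    refine Submodule.mem_sup.2 ⟨_, h0, _, h1, ?_⟩
    have := h.two
    match_scalars <;> field_simp <;> ring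
  have hmap : ∀ i j : Fin 2, i ≠ j → ∀ v ∈ eigDec t i, (t 3 : M4) *ᵥ v ∈ eigDec t j := by
    intro i j hij v hv
    rw [mem_eigDec] at hv ⊢
    rw [Matrix.mulVec_mulVec, h.anti (show (4 : Fin 5) ≠ 3 by decide), Matrix.neg_mulVec,
      ← Matrix.mulVec_mulVec, hv, Matrix.mulVec_smul, ← neg_smul]
    congr 1
    fin_cases i <;> fin_cases j <;> simp_all
  have hle : ∀ i j : Fin 2, i ≠ j →
      Module.finrank F (eigDec t i) ≤ Module.finrank F (eigDec t j) := fun i j hij => by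
    refine LinearMap.finrank_le_finrank_of_injective
      (f := ((Matrix.toLin' (t 3 : M4)).domRestrict (eigDec t i)).codRestrict (eigDec t j)
        (fun v => by simpa using hmap i j hij v v.2)) ?_
    intro v w e
    refine Subtype.ext ((Matrix.mulVec_injective_iff_isUnit.2 (t 3).isUnit) ?_)
    simpa using congrArg Subtype.val e
  have hsum := Submodule.finrank_sup_add_finrank_inf_eq (eigDec t 0) (eigDec t 1)
  rw [hsup, hdis.eq_bot, finrank_top, finrank_bot, add_zero] at hsum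
  simp only [Module.finrank_fintype_fun_eq_card, Fintype.card_sum, Fintype.card_fin] at hsum
  have l01 := hle 0 1 (by decide)
  have l10 := hle 1 0 (by decide)
  refine ⟨le_rfl, two_pos, fun i => ?_, ?_, ?_⟩
  · fin_cases i
    · change Module.finrank F (eigDec t 0) = 2; omega
    · change Module.finrank F (eigDec t 1) = 2; omega
  · intro i
    have : (⨆ (j) (_ : j ≠ i), eigDec t j) ≤ eigDec t (1 - i) := by
      refine iSup₂_le fun j hj => ?_
      rw [(by decide : ∀ i j : Fin 2, j ≠ i → j = 1 - i) i j hj]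
    refine Disjoint.mono_right this ?_
    fin_cases i
    · exact hdis
    · exact hdis.symm
  · refine eq_top_iff.2 (hsup ▸ sup_le (le_iSup (eigDec t) 0) (le_iSup (eigDec t) 1))

theorem Fr.eig_orth (h : Fr t) : ∀ i j : Fin 2, i ≠ j → ∀ u ∈ eigDec t i, ∀ v ∈ eigDec t j,
    H2.sympBilin 2 F u v = 0 := by
  intro i j hij u hu v hv
  rw [mem_eigDec] at hu hv
  have e := (Cfsg.Agent.H98.mem_spGL.1 (h.sp 4)) u v
  simp only [hu, hv, map_smul, LinearMap.smul_apply, smul_eq_mul] at e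
  have : (2 : F) * H2.sympBilin 2 F u v = 0 := by
    fin_cases i <;> fin_cases j <;> simp [-H2.sympBilin_apply] at e hij <;> linear_combination -e
  exact (mul_eq_zero.1 this).resolve_left h.two

theorem Fr.eig_nondeg (h : Fr t) : ∀ i, ∀ u ∈ eigDec t i, (∀ v ∈ eigDec t i, H2.sympBilin 2 F u v = 0) →
    u = 0 := by
  intro i u hu hz
  refine H2.sympForm_eq_zero_forall fun v => ?_
  rw [← H2.sympBilin_apply]
  obtain ⟨h0, h1⟩ := h.eig_split v
  have e : v = (2 : F)⁻¹ • (v + (t 4 : M4) *ᵥ v) + (2 : F)⁻¹ • (v - (t 4 : M4) *ᵥ v) := by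
    have := h.two
    match_scalars <;> field_simp <;> ring
  rw [e, map_add]
  fin_cases i
  · rw [hz _ h0, h.eig_orth 0 1 (by decide) u hu _ h1, add_zero]
  · rw [hz _ h1, h.eig_orth 1 0 (by decide) u hu _ h0, add_zero]

/-- An element permuting the eigenspaces fixes the line of the last member. -/
theorem Fr.pm_of_stab (h : Fr t) {g : G4} (hg : g ∈ Cfsg.Geo.decompositionStabilizer (eigDec t)) :
    Pm (g * t 4 * g⁻¹) (t 4) := by
  obtain ⟨σ, hσ⟩ := hg
  set s : Fin 2 → F := ![1, -1] with hs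
  have hmem : ∀ i, ∀ v ∈ eigDec t i, (t 4 : M4) *ᵥ ((g : M4) *ᵥ v) = s (σ i) • ((g : M4) *ᵥ v) :=
    fun i v hv => mem_eigDec.1 (hσ i ▸ Submodule.mem_map_of_mem (f := Matrix.toLin' (g : M4)) hv)
  obtain ⟨ε, hε, hεs⟩ : ∃ ε : F, (ε = 1 ∨ ε = -1) ∧ ∀ i, ε * s i = s (σ i) := by
    rcases eq_or_ne (σ 0) 0 with e | e
    · refine ⟨1, Or.inl rfl, fun i => ?_⟩
      have e1 : σ 1 = 1 := by
        rcases (by decide : ∀ x : Fin 2, x = 0 ∨ x = 1) (σ 1) with e' | e'
        · exact absurd (σ.injective (e'.trans e.symm)) (by decide)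
        · exact e'
      fin_cases i <;> simp [e, e1, hs]
    · have e0 : σ 0 = 1 := (by decide : ∀ x : Fin 2, x ≠ 0 → x = 1) _ e
      refine ⟨-1, Or.inr rfl, fun i => ?_⟩
      have e1 : σ 1 = 0 := by
        rcases (by decide : ∀ x : Fin 2, x = 0 ∨ x = 1) (σ 1) with e' | e'
        · exact e'
        · exact absurd (σ.injective (e'.trans e0.symm)) (by decide)
      fin_cases i <;> simp [e0, e1, hs]
  have key : (t 4 : M4) * g = ε • ((g : M4) * t 4) := by
    apply Matrix.toLin'.injective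
    refine LinearMap.ext fun v => ?_
    simp only [Matrix.toLin'_apply, Matrix.smul_mulVec, ← Matrix.mulVec_mulVec]
    obtain ⟨h0, h1⟩ := h.eig_split v
    have e : v = (2 : F)⁻¹ • (v + (t 4 : M4) *ᵥ v) + (2 : F)⁻¹ • (v - (t 4 : M4) *ᵥ v) := by
      have := h.two
      match_scalars <;> field_simp <;> ring
    rw [e, Matrix.mulVec_add, Matrix.mulVec_add, hmem 0 _ h0, hmem 1 _ h1, Matrix.mulVec_add,
      mem_eigDec.1 h0, mem_eigDec.1 h1, Matrix.mulVec_add, ← hεs 0, ← hεs 1]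
    simp only [hs, Matrix.mulVec_smul, Matrix.mulVec_add, Matrix.mulVec_sub]
    module
  rcases hε with rfl | rfl
  · left
    rw [mul_inv_eq_iff_eq_mul]
    apply Units.ext
    rw [Units.val_mul, Units.val_mul, key, one_smul]
  · right
    rw [mul_inv_eq_iff_eq_mul]
    apply Units.ext
    rw [Units.val_mul, Units.val_mul, Units.val_neg, neg_mul, key, neg_one_smul, neg_neg]

variable [Fintype F]

/-- When every pair lies in the subgroup it is everything. -/
theorem Base.eq_sp (B : Base t M) (q : QPar a b) (htop : pairs B.fr q M = ⊤) : M = Cfsg.spGL 2 F := by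
  have h := B.fr
  have hmax := H98.sp_wreath_maximal (D := eigDec t) h.isMDecomposition h.eig_nondeg h.eig_orth
    (fun hc => h.two (by
      have e := Nat.cast_card_eq_zero F
      rw [hc.2] at e
      exact_mod_cast e))
  have hle : Cfsg.Geo.decompositionStabilizer (eigDec t) ⊓ Cfsg.spGL 2 F ≤ M := by
    rintro g ⟨hg, hgsp⟩
    have hth : ∀ x y, B.fr.theta q (x, y) ∈ M := fun x y =>
      show (x, y) ∈ pairs B.fr q M from htop ▸ Subgroup.mem_top _
    rcases h.fix_four q hgsp (h.pm_of_stab hg) with ⟨x, y, rfl⟩ | ⟨x, y, rfl⟩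
    · exact hth x y
    · exact mul_mem (B.t_mem 3) (hth x y)
  refine (hmax.2 M hle B.le).resolve_left fun e => ?_
  obtain ⟨π, hπ, h4, h0, h1, hd⟩ := h.exists_three (show (4 : Fin 5) ≠ 0 by decide)
    (show (0 : Fin 5) ≠ 1 by decide) (show (4 : Fin 5) ≠ 1 by decide)
  have hπm : MonoAct t π := fun j => by
    by_cases e4 : j = 4
    · exact ⟨0, Or.inl (e4 ▸ h4)⟩
    by_cases e0 : j = 0
    · exact ⟨1, Or.inl (e0 ▸ h0)⟩
    by_cases e1 : j = 1
    · exact ⟨4, Or.inl (e1 ▸ h1)⟩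
    exact ⟨j, Or.inl (hd j e4 e0 e1)⟩
  have hπM := B.mono_mem π hπ hπm
  rw [e] at hπM
  have := h.pm_of_stab hπM.1
  rw [h4] at this
  exact h.not_pm (by decide) this

/-- A normalised frame of a group of minus type. -/
theorem exists_frame (h2 : (2 : F) ≠ 0) (R : Subgroup G4) (hRs : Cfsg.Geo.IsSymplecticTypeGroup 2 R)
    (hRi : Cfsg.Geo.ActsAbsolutelyIrreducibly (Cfsg.Geo.matrixSet R)) (hR : R ≤ Cfsg.spGL 2 F)
    (hR5 : Nat.card R = 2 ^ 5) (hRZ : Nat.card (Subgroup.center R) = 2) (hRm : Cfsg.Geo.IsOfMinusType 2 R) :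
    ∃ t : Fin 5 → G4, Fr t ∧ ∀ g ∈ Cfsg.spGL 2 F, (g ∈ Cfsg.Geo.subgroupNormalizer R ↔ MonoAct t g) := by
  classical
  obtain ⟨t, htR, ht, hgen, hinv, hsch⟩ := H66.Minus.exists_five h2 R hRs hRi hR5 hRZ hRm
  have hsq : ∀ i, t i * t i = 1 := fun i => Units.ext (ht.sq i)
  have hanti : ∀ i j, i ≠ j → t i * t j = -(t j * t i) := fun i j hij => Units.ext (ht.anti i j hij)
  have hneg : (-1 : G4) ∈ R := by
    have e : t 0 * t 1 * (t 0 * t 1) = -1 := by
      calc t 0 * t 1 * (t 0 * t 1) = -(t 1 * t 0) * (t 0 * t 1) := by rw [← hanti 0 1 (by decide)]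
        _ = -1 := by rw [neg_mul, mul_assoc, ← mul_assoc (t 0), hsq, one_mul, hsq]
    rw [← e]
    exact mul_mem (mul_mem (htR 0) (htR 1)) (mul_mem (htR 0) (htR 1))
  have hadj : ∀ i, adj (t i : M4) = t i := fun i => by
    rw [adj_mul_self (hR (htR i)), inv_eq_of_mul_eq_one_right (hsq i)]
  set P : M4 := (t 0 : M4) * t 1 * t 2 * t 3 * t 4 with hP
  have am : ∀ {i j : Fin 5}, i ≠ j → ∀ A : M4,
      (t i : M4) * ((t j : M4) * A) = -((t j : M4) * ((t i : M4) * A)) := fun hij A => by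
    rw [← mul_assoc, ht.anti _ _ hij, neg_mul, mul_assoc]
  obtain ⟨c, hc⟩ := hsch P fun i => by
    fin_cases i <;>
      simp [hP, mul_assoc, am (i := 1) (j := 0) (by decide), am (i := 2) (j := 0) (by decide),
        am (i := 3) (j := 0) (by decide), am (i := 4) (j := 0) (by decide), am (i := 2) (j := 1) (by decide),
        am (i := 3) (j := 1) (by decide), am (i := 4) (j := 1) (by decide), am (i := 3) (j := 2) (by decide),
        am (i := 4) (j := 2) (by decide), am (i := 4) (j := 3) (by decide),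
        ht.anti 1 0 (by decide), ht.anti 2 0 (by decide), ht.anti 3 0 (by decide), ht.anti 4 0 (by decide),
        ht.anti 2 1 (by decide), ht.anti 3 1 (by decide), ht.anti 4 1 (by decide),
        ht.anti 3 2 (by decide), ht.anti 4 2 (by decide), ht.anti 4 3 (by decide)]
  have hcc : c * c = 1 := by
    have e1 : P * adj P = 1 := by
      simp only [hP, adj_mul, hadj, mul_assoc]
      simp [← mul_assoc (t 4 : M4) (t 4 : M4), ← mul_assoc (t 3 : M4) (t 3 : M4),
        ← mul_assoc (t 2 : M4) (t 2 : M4), ← mul_assoc (t 1 : M4) (t 1 : M4), ht.sq]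
    rw [hc, adj_smul, adj_one, smul_mul_smul_comm, one_mul] at e1
    exact one_smul_inj (e1.trans (one_smul F _).symm)
  obtain ⟨u, hu, huP⟩ : ∃ u : G4, Pm u (t 4) ∧ (t 0 : M4) * t 1 * t 2 * t 3 * u = 1 := by
    rcases mul_self_eq_one_iff.1 hcc with rfl | rfl
    · exact ⟨t 4, Or.inl rfl, by rw [← hP, hc, one_smul]⟩
    · exact ⟨-t 4, Or.inr rfl, by rw [Units.val_neg, mul_neg, ← hP, hc, neg_one_smul, neg_neg]⟩
  set t' : Fin 5 → G4 := Function.update t 4 u with ht'
  have hpm : ∀ i, Pm (t' i) (t i) := fun i => by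
    rw [ht']
    by_cases h : i = 4
    · subst h; rw [Function.update_self]; exact hu
    · rw [Function.update_of_ne h]; exact Or.inl rfl
  have hfr : Fr t' := by
    refine ⟨h2, ⟨fun i => ?_, fun i j hij => ?_⟩, fun i => ?_, ?_⟩
    · rcases hpm i with e | e <;> simp only [e] <;> simp [ht.sq]
    · rcases hpm i with e | e <;> rcases hpm j with e' | e' <;> simp only [e, e'] <;>
        simp [ht.anti i j hij]
    · rcases hpm i with e | e <;> rw [e]
      · exact hR (htR i)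
      · exact neg_mem_spGL (hR (htR i))
    · simpa [ht'] using huP
  refine ⟨t', hfr, fun g _ => ?_⟩
  have negR : ∀ {x : G4}, x ∈ R → -x ∈ R := fun {x} hx => by rw [← neg_one_mul]; exact mul_mem hneg hx
  constructor
  · intro hg i
    have hx : g * t i * g⁻¹ ∈ R := (Subgroup.mem_normalizer_iff.1 hg (t i)).1 (htR i)
    have hxx : ((g * t i * g⁻¹ : G4) : M4) * (g * t i * g⁻¹ : G4) = 1 := by
      rw [← Units.val_mul, show g * t i * g⁻¹ * (g * t i * g⁻¹) = g * (t i * t i) * g⁻¹ by group, hsq,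
        mul_one, mul_inv_cancel, Units.val_one]
    rcases hinv _ hx hxx with hs | ⟨j, hj⟩
    · exfalso
      obtain ⟨k, hk⟩ := exists_ne i
      have hx' : g * t i * g⁻¹ = 1 ∨ g * t i * g⁻¹ = -1 :=
        hs.imp (fun e => Units.ext e) fun e => Units.ext e
      have e' : t i = 1 ∨ t i = -1 := by
        rw [show t i = g⁻¹ * (g * t i * g⁻¹) * g by group]
        rcases hx' with e | e <;> rw [e] <;> simp
      have e2 := hanti i k hk.symm
      have e3 : t i * t k = t k * t i := by rcases e' with e | e <;> rw [e] <;> simp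
      rw [e3] at e2
      exact H66.Minus.eq_neg_self_false h2 (congrArg Units.val e2)
    · refine ⟨j, ?_⟩
      have e : Pm (g * t i * g⁻¹) (t j) := hj.imp (fun e => Units.ext e) fun e => Units.ext e
      exact ((hpm i).conj g).trans (e.trans (hpm j).symm)
  · intro hg
    haveI : Finite R := Nat.finite_of_card_ne_zero (by rw [hR5]; norm_num)
    have hle : R ≤ R.comap (MulAut.conj g).toMonoidHom := hgen.trans ((Subgroup.closure_le _).2 (by
      rintro _ ⟨i, rfl⟩
      show g * t i * g⁻¹ ∈ R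
      obtain ⟨j, hj⟩ := hg i
      rcases ((hpm i).conj g).symm.trans ((show Pm _ _ from hj).trans (hpm j)) with e | e <;> rw [e]
      · exact htR j
      · exact negR (htR j)))
    refine Subgroup.mem_normalizer_iff.2 fun x => ⟨fun hx => hle hx, fun hx => ?_⟩
    have hinj : Function.Injective fun x : R => (⟨_, hle x.2⟩ : R) := fun a b h =>
      Subtype.ext ((MulAut.conj g).injective (congrArg Subtype.val h))
    obtain ⟨x', hx'⟩ := (Finite.injective_iff_surjective.1 hinj) ⟨_, hx⟩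
    have : (x' : G4) = x := (MulAut.conj g).injective (congrArg Subtype.val hx')
    exact this ▸ x'.2

/-- Normalisers of minus-type groups of order 32 are maximal in `Sp₄(p)`. -/
theorem minus_normalizer_maximal (hodd : Odd (Fintype.card F)) (hp : (Fintype.card F).Prime) (R : Subgroup G4)
    (hRs : Cfsg.Geo.IsSymplecticTypeGroup 2 R)
    (hRi : Cfsg.Geo.ActsAbsolutelyIrreducibly (Cfsg.Geo.matrixSet R)) (hR : R ≤ Cfsg.spGL 2 F)
    (hR5 : Nat.card R = 2 ^ 5) (hRZ : Nat.card (Subgroup.center R) = 2) (hRm : Cfsg.Geo.IsOfMinusType 2 R) :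
    Cfsg.Geo.IsMaximalIn (Cfsg.spGL 2 F) (Cfsg.Geo.subgroupNormalizer R ⊓ Cfsg.spGL 2 F) := by
  have h2 : (2 : F) ≠ 0 := Ring.two_ne_zero fun hc => by
    have := FiniteField.even_card_of_char_two hc
    obtain ⟨k, hk⟩ := hodd
    omega
  obtain ⟨t, h, hiff⟩ := exists_frame h2 R hRs hRi hR hR5 hRZ hRm
  obtain ⟨a, b, hab⟩ := exists_sq_add_eq h2 (-1 : F)
  have q : QPar a b := ⟨h2, hab⟩
  refine ⟨lt_of_le_of_ne inf_le_right fun e => ?_, fun M hHM hM => ?_⟩
  · let g : SL(2, F) := H6.sl2 1 1 0 1 (by norm_num)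
    have hmem := h.theta_sp q ((1 : SL(2, F)), g)
    have hmono := (hiff _ hmem).1 (e.symm ▸ hmem : _ ∈ Cfsg.Geo.subgroupNormalizer R ⊓ Cfsg.spGL 2 F).1
    obtain ⟨m, hm⟩ := hmono 3
    rw [← h.tau_one q, h.theta_conj_tau, inv_one, mul_one, mul_one] at hm
    have hv : (h.tau q g : M4) = vec t ![2⁻¹, -b / 2, -(a / 2), 1, 0] := by
      refine h.tau_eq_vec q (w := 1) (x := 2⁻¹) (y := -b / 2) (z := a / 2) ?_
      ext u v
      fin_cases u <;> fin_cases v <;> simp [g, H6.sl2] <;> field_simp <;>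
        first | linear_combination hab | linear_combination -hab | ring
    have hne : ∀ i : Fin 5, ![(2 : F)⁻¹, -b / 2, -(a / 2), 1, 0] i ≠ 0 → i = m := by
      intro i hi
      by_contra hne
      refine hi ?_
      have hw : vec t ![(2 : F)⁻¹, -b / 2, -(a / 2), 1, 0] = vec t (Pi.single m 1) ∨
          vec t ![(2 : F)⁻¹, -b / 2, -(a / 2), 1, 0] = vec t (Pi.single m (-1)) := by
        rcases hm with e | e
        · left; rw [← hv, e, vec_single, one_smul]
        · right; rw [← hv, e, vec_single, Units.val_neg, neg_one_smul]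
      rcases hw with e | e <;> rw [h.vec_inj e, Pi.single_eq_of_ne hne]
    have e0 := hne 0 (by simp [h2])
    have e3 := hne 3 (by simp)
    exact absurd (e0.trans e3.symm) (by decide)
  · have B : Base t M := ⟨h, hM, fun g hg hm => hHM ⟨(hiff g hg).2 hm, hg⟩⟩
    rcases (B.loc q).mono_or_om hp hodd with hL | hom
    · have o := B.over_of_mono q hL
      exact Or.inl (le_antisymm (fun c hc => ⟨(hiff c (hM hc)).2 (o.mono_of_mem hc), hM hc⟩) hHM)
    · exact Or.inr (B.eq_sp q (B.pairs_eq_top q hp hodd hom))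

end Cfsg.Agent.H1.SpC6
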