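import Mathlib
import Cfsg.Agent.H6.Basic

/-!
Embeddings of two by two matrices by pairs of anticommuting elements with scalar squares.
-/

set_option autoImplicit false

open Matrix
open scoped Quaternion

namespace Cfsg.Agent.H1.SpC6

variable {F : Type*} [Field F]

/-- A representation `a ^ 2 + b ^ 2 = c` of a nonzero scalar. -/
structure CPar (c a b : F) : Prop where
  two : (2 : F) ≠ 0
  ne : c ≠ 0
  eq : a ^ 2 + b ^ 2 = c

variable {c a b : F}

/-- The standard quaternion basis inside two by two matrices. -/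
def matBasis (h : CPar c a b) : QuaternionAlgebra.Basis (Matrix (Fin 2) (Fin 2) F) (-1) 0 c where
  i := !![0, 1; -1, 0]
  j := !![a, b; b, -a]
  k := !![b, -a; -a, -b]
  i_mul_i := by ext u v; fin_cases u <;> fin_cases v <;> simp [Matrix.mul_apply, Fin.sum_univ_two]
  j_mul_j := by
    ext u v
    fin_cases u <;> fin_cases v <;> simp [Matrix.mul_apply, Fin.sum_univ_two] <;>
      first | linear_combination h.eq | ring
  i_mul_j := by ext u v; fin_cases u <;> fin_cases v <;> simp [Matrix.mul_apply, Fin.sum_univ_two]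
  j_mul_i := by ext u v; fin_cases u <;> fin_cases v <;> simp [Matrix.mul_apply, Fin.sum_univ_two]

theorem mat_lift (h : CPar c a b) (x : ℍ[F,-1,0,c]) :
    (matBasis h).liftHom x = !![x.re + a * x.imJ + b * x.imK, x.imI + b * x.imJ - a * x.imK;
      -x.imI + b * x.imJ - a * x.imK, x.re - a * x.imJ - b * x.imK] := by
  rw [QuaternionAlgebra.Basis.liftHom]
  ext u v
  fin_cases u <;> fin_cases v <;>
    simp [QuaternionAlgebra.Basis.lift, matBasis, Matrix.algebraMap_eq_diagonal] <;> ring

/-- Coordinates of a two by two matrix. -/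
def quatInv (c a b : F) (A : Matrix (Fin 2) (Fin 2) F) : ℍ[F,-1,0,c] :=
  ⟨(A 0 0 + A 1 1) / 2, (A 0 1 - A 1 0) / 2, (a * (A 0 0 - A 1 1) + b * (A 0 1 + A 1 0)) / (2 * c),
    (b * (A 0 0 - A 1 1) - a * (A 0 1 + A 1 0)) / (2 * c)⟩

/-- Quaternions as two by two matrices. -/
noncomputable def quatEquiv (h : CPar c a b) : ℍ[F,-1,0,c] ≃ₐ[F] Matrix (Fin 2) (Fin 2) F :=
  AlgEquiv.ofBijective (matBasis h).liftHom <| Function.bijective_iff_has_inverse.2 ⟨quatInv c a b, by
    intro x
    have := h.two
    have := h.ne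
    rw [mat_lift, quatInv]
    ext <;> simp <;> field_simp
    · ring
    · ring
    · linear_combination (2 * x.imJ) * h.eq
    · linear_combination (2 * x.imK) * h.eq, by
    intro A
    have := h.two
    have := h.ne
    rw [mat_lift, quatInv]
    ext u v
    fin_cases u <;> fin_cases v <;> simp <;> field_simp
    · linear_combination (A 0 0 - A 1 1) * h.eq
    · linear_combination (A 0 1 + A 1 0) * h.eq
    · linear_combination (A 0 1 + A 1 0) * h.eq
    · linear_combination (-(A 0 0 - A 1 1)) * h.eq⟩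

/-- The embedding attached to a pair of anticommuting elements. -/
noncomputable def quatEmb (h : CPar c a b) {A : Type*} [Ring A] [Algebra F A]
    (B : QuaternionAlgebra.Basis A (-1) 0 c) : Matrix (Fin 2) (Fin 2) F →ₐ[F] A :=
  B.liftHom.comp (quatEquiv h).symm.toAlgHom

theorem quatEmb_eq (h : CPar c a b) {A : Type*} [Ring A] [Algebra F A]
    (B : QuaternionAlgebra.Basis A (-1) 0 c) {X : Matrix (Fin 2) (Fin 2) F} {w x y z : F}
    (hX : X = !![w + a * y + b * z, x + b * y - a * z; -x + b * y - a * z, w - a * y - b * z]) :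
    quatEmb h B X = w • 1 + x • B.i + y • B.j + z • B.k := by
  have e : quatEquiv h ⟨w, x, y, z⟩ = X := by
    rw [hX]
    exact (mat_lift h _)
  rw [← e]
  show B.lift ((quatEquiv h).symm (quatEquiv h ⟨w, x, y, z⟩)) = _
  rw [AlgEquiv.symm_apply_apply]
  simp [QuaternionAlgebra.Basis.lift, Algebra.algebraMap_eq_smul_one]

theorem exists_coords (h : CPar c a b) (X : Matrix (Fin 2) (Fin 2) F) :
    ∃ w x y z : F,
      X = !![w + a * y + b * z, x + b * y - a * z; -x + b * y - a * z, w - a * y - b * z] := by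
  obtain ⟨q, hq⟩ := (quatEquiv h).surjective X
  exact ⟨q.re, q.imI, q.imJ, q.imK, by rw [← hq]; exact mat_lift h q⟩

end Cfsg.Agent.H1.SpC6
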