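import Cfsg.Agent.H1.SpC6.Frame

/-!
An overgroup of the monomial group of a frame in which stabilisers of frame lines are monomial is monomial.
-/

set_option autoImplicit false

namespace Cfsg.Agent.H1.SpC6

open Matrix

variable {F : Type*} [Field F]

local notation "M4" => Matrix (Fin 2 ⊕ Fin 2) (Fin 2 ⊕ Fin 2) F
local notation "G4" => GL (Fin 2 ⊕ Fin 2) F

variable {t : Fin 5 → GL (Fin 2 ⊕ Fin 2) F}

/-- Equality up to sign. -/
def Pm (g g' : G4) : Prop := g = g' ∨ g = -g'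

theorem Pm.symm {g g' : G4} (h : Pm g g') : Pm g' g := by
  rcases h with rfl | rfl
  · exact Or.inl rfl
  · exact Or.inr (neg_neg g').symm

theorem Pm.trans {g g' g'' : G4} (h : Pm g g') (h' : Pm g' g'') : Pm g g'' := by
  rcases h with rfl | rfl <;> rcases h' with rfl | rfl
  · exact Or.inl rfl
  · exact Or.inr rfl
  · exact Or.inr rfl
  · exact Or.inl (neg_neg g'')

theorem Pm.conj {g g' : G4} (h : Pm g g') (c : G4) : Pm (c * g * c⁻¹) (c * g' * c⁻¹) := by
  rcases h with rfl | rfl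
  · exact Or.inl rfl
  · exact Or.inr (by rw [mul_neg, neg_mul])

theorem MonoAct.mul {g g' : G4} (hg : MonoAct t g) (hg' : MonoAct t g') : MonoAct t (g * g') := by
  intro i
  obtain ⟨j, hj⟩ := hg' i
  obtain ⟨k, hk⟩ := hg j
  refine ⟨k, ?_⟩
  rw [show g * g' * t i * (g * g')⁻¹ = g * (g' * t i * g'⁻¹) * g⁻¹ by group]
  exact ((show Pm _ _ from hj).conj g).trans hk

theorem Fr.not_pm (h : Fr t) {i j : Fin 5} (hij : i ≠ j) : ¬ Pm (t i) (t j) := by
  intro e
  have h2 := h.anti hij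
  have e' : t i * t j = t j * t i := by rcases e with e | e <;> rw [e] <;> simp
  rw [← Units.val_mul, ← Units.val_mul, e'] at h2
  exact H66.Minus.eq_neg_self_false h.two h2

theorem Fr.exists_perm (h : Fr t) {g : G4} (hg : MonoAct t g) :
    ∃ σ : Equiv.Perm (Fin 5), ∀ i, Pm (g * t i * g⁻¹) (t (σ i)) := by
  choose σ hσ using hg
  have hinj : Function.Injective σ := fun i j e => by
    by_contra hne
    refine h.not_pm hne ?_
    have := ((show Pm _ _ from hσ i).trans (e ▸ (show Pm _ _ from hσ j).symm)).conj g⁻¹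
    rwa [inv_inv, show g⁻¹ * (g * t i * g⁻¹) * g = t i by group,
      show g⁻¹ * (g * t j * g⁻¹) * g = t j by group] at this
  exact ⟨Equiv.ofBijective σ (Finite.injective_iff_bijective.1 hinj), hσ⟩

theorem Fr.mono_inv (h : Fr t) {g : G4} (hg : MonoAct t g) : MonoAct t g⁻¹ := by
  obtain ⟨σ, hσ⟩ := h.exists_perm hg
  intro i
  refine ⟨σ.symm i, ?_⟩
  have := ((hσ (σ.symm i)).conj g⁻¹).symm
  rwa [Equiv.apply_symm_apply, inv_inv, show g⁻¹ * (g * t (σ.symm i) * g⁻¹) * g = t (σ.symm i) by group]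
    at this

/-- Conjugation by a monomial element on a combination moves the support. -/
theorem Fr.supp_image (h : Fr t) {g : G4} {σ : Equiv.Perm (Fin 5)}
    (hσ : ∀ i, Pm (g * t i * g⁻¹) (t (σ i))) {v w : Fin 5 → F}
    (e : (g : M4) * vec t v * (g⁻¹ : G4) = vec t w) : supp w = (supp v).image σ := by
  have hs : ∀ i, ∃ s : F, s ≠ 0 ∧ (g : M4) * (t i : M4) * (g⁻¹ : G4) = s • (t (σ i) : M4) := fun i => by
    rcases hσ i with h' | h'
    · exact ⟨1, one_ne_zero, by rw [← Units.val_mul, ← Units.val_mul, h', one_smul]⟩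
    · exact ⟨-1, neg_ne_zero.2 one_ne_zero, by
        rw [← Units.val_mul, ← Units.val_mul, h', Units.val_neg, neg_one_smul]⟩
  choose s hs0 hs using hs
  have hw : w = fun k => v (σ.symm k) * s (σ.symm k) := by
    refine h.vec_inj ?_
    rw [← e, vec, vec, Finset.mul_sum, Finset.sum_mul]
    refine Fintype.sum_equiv σ _ _ fun i => ?_
    rw [mul_smul_comm, smul_mul_assoc, hs, smul_smul, Equiv.symm_apply_apply]
  ext k
  rw [Finset.mem_image, mem_supp, hw]
  constructor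
  · intro hk
    exact ⟨σ.symm k, mem_supp.2 (left_ne_zero_of_mul hk), Equiv.apply_symm_apply _ _⟩
  · rintro ⟨i, hi, rfl⟩
    simp only [Equiv.symm_apply_apply]
    exact mul_ne_zero (mem_supp.1 hi) (hs0 i)

theorem vv_inv (g : G4) (i k : Fin 5) : vv t g⁻¹ i k = vv t g k i := by
  simp only [vv, coord, inv_inv, Units.val_mul]
  congr 1
  rw [show ((g⁻¹ : G4) : M4) * (t i : M4) * (g : M4) * (t k : M4) =
    (((g⁻¹ : G4) : M4) * (t i : M4)) * ((g : M4) * (t k : M4)) by simp only [mul_assoc],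
    trace_mul_comm, mul_assoc (g : M4) (t k : M4), mul_assoc (g : M4) (t k : M4), ← mul_assoc (t k : M4),
    ← mul_assoc (g : M4)]

theorem supp_card_one {v : Fin 5 → F} (hv : v ⬝ᵥ v = 1) (hs : (supp v).card ≤ 1) :
    ∃ l, v = Pi.single l 1 ∨ v = Pi.single l (-1) := by
  obtain ⟨l, hl⟩ := supp_nonempty hv
  refine ⟨l, eq_single_of_supp hv fun j hj => ?_⟩
  by_contra hne
  exact hj (Finset.card_le_one.1 hs j (mem_supp.2 hne) l hl)

theorem dot_two {v w : Fin 5 → F} {p q : Fin 5} (hpq : p ≠ q) (hv : supp v ⊆ {p, q}) :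
    v ⬝ᵥ w = v p * w p + v q * w q := by
  rw [dotProduct, ← Finset.sum_subset (Finset.subset_univ ({p, q} : Finset (Fin 5))) fun x _ hx => ?_,
    Finset.sum_pair hpq]
  rw [show v x = 0 from by_contra fun hne => hx (hv (mem_supp.2 hne)), zero_mul]

/-- Orthogonal unit vectors on two coordinates do not share exactly one of them. -/
theorem supp_eq_or_disjoint {v w : Fin 5 → F} (hv : (supp v).card = 2) (hw : (supp w).card = 2)
    (hvw : v ⬝ᵥ w = 0) : supp v = supp w ∨ Disjoint (supp v) (supp w) := by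
  obtain ⟨p, q, hpq, hs⟩ := Finset.card_eq_two.1 hv
  rw [dot_two hpq hs.subset] at hvw
  have hp : v p ≠ 0 := mem_supp.1 (by rw [hs]; simp)
  have hq : v q ≠ 0 := mem_supp.1 (by rw [hs]; simp)
  by_cases hwp : w p = 0
  · right
    have hwq : w q = 0 := (mul_eq_zero.1 (by linear_combination hvw - v p * hwp : v q * w q = 0)).resolve_left hq
    rw [hs, Finset.disjoint_left]
    intro x hx hxw
    rw [Finset.mem_insert, Finset.mem_singleton] at hx
    rcases hx with rfl | rfl <;> exact mem_supp.1 hxw ‹_›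
  · left
    have hwq : w q ≠ 0 := fun h0 => hwp
      ((mul_eq_zero.1 (by linear_combination hvw - v q * h0 : v p * w p = 0)).resolve_left hp)
    rw [hs]
    refine Finset.eq_of_subset_of_card_le (fun x hx => ?_) (by rw [hw, Finset.card_pair hpq])
    rw [Finset.mem_insert, Finset.mem_singleton] at hx
    rcases hx with rfl | rfl <;> exact mem_supp.2 ‹_›

/-- Three mutually orthogonal unit vectors do not live on one pair of coordinates. -/
theorem not_three_in_plane {v w u : Fin 5 → F} {p q : Fin 5} (hpq : p ≠ q) (hv : supp v = {p, q})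
    (hw : supp w = {p, q}) (hu : supp u = {p, q}) (h1 : v ⬝ᵥ v = 1) (hvw : v ⬝ᵥ w = 0)
    (hvu : v ⬝ᵥ u = 0) (hwu : w ⬝ᵥ u = 0) : False := by
  rw [dot_two hpq hv.subset] at h1 hvw hvu
  rw [dot_two hpq hw.subset] at hwu
  have hp : w p * u p ≠ 0 :=
    mul_ne_zero (mem_supp.1 (by rw [hw]; simp)) (mem_supp.1 (by rw [hu]; simp))
  refine hp ?_
  linear_combination (v p * w p) * hvu - (v q * u q) * hvw + (-(w p * u p)) * h1 + (v q * v q) * hwu

/-- The overgroups considered. -/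
structure Over (t : Fin 5 → G4) (M : Subgroup G4) : Prop where
  fr : Fr t
  le : M ≤ Cfsg.spGL 2 F
  mono_mem : ∀ g ∈ Cfsg.spGL 2 F, MonoAct t g → g ∈ M
  stab : ∀ m ∈ M, ∀ i, Pm (m * t i * m⁻¹) (t i) → MonoAct t m

variable {M : Subgroup (GL (Fin 2 ⊕ Fin 2) F)}

theorem Fr.mono_t (h : Fr t) (i : Fin 5) : MonoAct t (t i) := by
  intro j
  refine ⟨j, ?_⟩
  rw [h.inv_t]
  rcases eq_or_ne i j with rfl | hij
  · left; rw [h.sq', one_mul]
  · right
    apply Units.ext
    rw [Units.val_mul, Units.val_mul, Units.val_neg, h.anti hij, neg_mul, mul_assoc, h.sq, mul_one]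

theorem Over.t_mem (o : Over t M) (i : Fin 5) : t i ∈ M := o.mono_mem _ (o.fr.sp i) (o.fr.mono_t i)

theorem Over.three (o : Over t M) {a b c : Fin 5} (hab : a ≠ b) (hbc : b ≠ c) (hac : a ≠ c) :
    ∃ π ∈ M, MonoAct t π ∧ π * t a * π⁻¹ = t b ∧ π * t b * π⁻¹ = t c ∧ π * t c * π⁻¹ = t a ∧
      ∀ d, d ≠ a → d ≠ b → d ≠ c → π * t d * π⁻¹ = t d := by
  obtain ⟨π, hπ, ha, hb, hc, hd⟩ := o.fr.exists_three hab hbc hac
  have hm : MonoAct t π := fun i => by
    by_cases h1 : i = a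
    · exact ⟨b, Or.inl (h1 ▸ ha)⟩
    by_cases h2 : i = b
    · exact ⟨c, Or.inl (h2 ▸ hb)⟩
    by_cases h3 : i = c
    · exact ⟨a, Or.inl (h3 ▸ hc)⟩
    exact ⟨i, Or.inl (hd i h1 h2 h3)⟩
  exact ⟨π, o.mono_mem π hπ hm, hm, ha, hb, hc, hd⟩

theorem Over.stab' (o : Over t M) {m : G4} (hm : m ∈ M) {i j : Fin 5} (e : Pm (m * t i * m⁻¹) (t j)) :
    MonoAct t m := by
  rcases eq_or_ne i j with rfl | hij
  · exact o.stab m hm i e
  obtain ⟨c, hci, hcj⟩ : ∃ c : Fin 5, c ≠ i ∧ c ≠ j :=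
    (by decide : ∀ i j : Fin 5, ∃ c, c ≠ i ∧ c ≠ j) i j
  obtain ⟨π, hπ, hπm, -, hπj, -, -⟩ := o.three (a := c) (b := j) (c := i) hcj hij.symm hci
  have hmm : MonoAct t (π * m) := by
    refine o.stab _ (mul_mem hπ hm) i ?_
    rw [show π * m * t i * (π * m)⁻¹ = π * (m * t i * m⁻¹) * π⁻¹ by group]
    exact (e.conj π).trans (Or.inl hπj)
  simpa using (o.fr.mono_inv hπm).mul hmm

theorem Over.pm_of_vec (o : Over t M) {g : G4} (hg : g ∈ M) {i : Fin 5} (hs : (supp (vv t g i)).card ≤ 1) :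
    ∃ l, Pm (g * t i * g⁻¹) (t l) := by
  obtain ⟨l, hl⟩ := supp_card_one (by rw [o.fr.vv_dot (o.le hg), if_pos rfl]) hs
  exact ⟨l, eq_or_neg_of_vec (o.fr.conj_t (o.le hg) i) hl⟩

theorem Over.mono_of_image_zero (o : Over t M) {g : G4} (hg : g ∈ M) {i k : Fin 5} (hz : vv t g i k = 0) :
    MonoAct t (g * t i * g⁻¹) := by
  refine o.stab _ (mul_mem (mul_mem hg (o.t_mem i)) (inv_mem hg)) k (Or.inr (Units.ext ?_))
  rw [show (g * t i * g⁻¹)⁻¹ = g * t i * g⁻¹ by
      rw [_root_.mul_inv_rev, _root_.mul_inv_rev, inv_inv, o.fr.inv_t, ← mul_assoc],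
    Units.val_mul _ (g * t i * g⁻¹), Units.val_mul _ (t k), o.fr.conj_t (o.le hg), Units.val_neg,
    o.fr.anti_of_zero hz, neg_mul, mul_assoc, o.fr.vec_sq, o.fr.vv_dot (o.le hg), if_pos rfl, one_smul,
    mul_one]

/-- No member of the frame has a conjugate supported on exactly two coordinates. -/
theorem Over.fus (o : Over t M) {g : G4} (hg : g ∈ M) (j : Fin 5) : (supp (vv t g j)).card ≠ 2 := by
  intro hx
  have h := o.fr
  obtain ⟨p, q, hpq, hs⟩ := Finset.card_eq_two.1 hx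
  obtain ⟨a, b, c, hab, hbc, hac, hout⟩ := (by decide : ∀ p q : Fin 5, ∃ a b c : Fin 5,
    a ≠ b ∧ b ≠ c ∧ a ≠ c ∧ ∀ d, d = a ∨ d = b ∨ d = c → d ≠ p ∧ d ≠ q) p q
  have hzero : ∀ d, d = a ∨ d = b ∨ d = c → vv t g⁻¹ d j = 0 := fun d hd => by
    rw [vv_inv]
    by_contra hne
    have := hs ▸ mem_supp.2 hne
    rw [Finset.mem_insert, Finset.mem_singleton] at this
    exact this.elim (hout d hd).1 (hout d hd).2
  have hunit : ∀ d, vv t g⁻¹ d ⬝ᵥ vv t g⁻¹ d = 1 := fun d => by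
    rw [h.vv_dot (o.le (inv_mem hg)), if_pos rfl]
  have hY : ∀ d, d = a ∨ d = b ∨ d = c → (supp (vv t g⁻¹ d)).card = 2 := fun d hd => by
    have hle := h.supp_le_two (h.conj_t (o.le (inv_mem hg)) d) (hunit d)
      (o.mono_of_image_zero (inv_mem hg) (hzero d hd))
    refine le_antisymm hle ?_
    by_contra hlt
    obtain ⟨l, hl⟩ := o.pm_of_vec (inv_mem hg) (show (supp (vv t g⁻¹ d)).card ≤ 1 by omega)
    obtain ⟨l', hl'⟩ := h.mono_inv (o.stab' (inv_mem hg) hl) j
    rw [inv_inv] at hl'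
    rcases h.vv_eq_single (o.le hg) hl' with e | e <;>
    · have : supp (vv t g j) ⊆ {l'} := fun x hx' => by
        rw [Finset.mem_singleton]
        by_contra hne
        rw [mem_supp, e, Pi.single_eq_of_ne hne] at hx'
        exact hx' rfl
      have := Finset.card_le_card this
      rw [Finset.card_singleton] at this
      omega
  obtain ⟨π, hπ, -, hπa, hπb, hπc, hπd⟩ := o.three hab hbc hac
  set k : G4 := g⁻¹ * π * g with hk
  have hkM : k ∈ M := mul_mem (mul_mem (inv_mem hg) hπ) hg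
  have hcomm : π * (g * t j * g⁻¹) * π⁻¹ = g * t j * g⁻¹ := by
    apply Units.ext
    rw [Units.val_mul, Units.val_mul, h.conj_t (o.le hg), vec, Finset.mul_sum, Finset.sum_mul]
    refine Finset.sum_congr rfl fun i _ => ?_
    by_cases hi : vv t g j i = 0
    · simp [hi]
    have := hs ▸ mem_supp.2 hi
    rw [Finset.mem_insert, Finset.mem_singleton] at this
    have hne : ∀ d, d = a ∨ d = b ∨ d = c → i ≠ d := fun d hd e => by
      subst e
      exact this.elim (hout i hd).1 (hout i hd).2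
    rw [mul_smul_comm, smul_mul_assoc, ← Units.val_mul, ← Units.val_mul,
      hπd i (hne a (.inl rfl)) (hne b (.inr (.inl rfl))) (hne c (.inr (.inr rfl)))]
  have hkj : k * t j * k⁻¹ = t j := by
    rw [hk, show g⁻¹ * π * g * t j * (g⁻¹ * π * g)⁻¹ = g⁻¹ * (π * (g * t j * g⁻¹) * π⁻¹) * g by group,
      hcomm]
    group
  obtain ⟨σ, hσ⟩ := h.exists_perm (o.stab k hkM j (Or.inl hkj))
  have himg : ∀ d d', π * t d * π⁻¹ = t d' →
      supp (vv t g⁻¹ d') = (supp (vv t g⁻¹ d)).image σ := fun d d' e => by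
    refine h.supp_image hσ ?_
    rw [← h.conj_t (o.le (inv_mem hg)), ← h.conj_t (o.le (inv_mem hg)), ← Units.val_mul, ← Units.val_mul,
      ← e, hk]
    congr 1
    group
  have horth : ∀ {d d'}, d ≠ d' → vv t g⁻¹ d ⬝ᵥ vv t g⁻¹ d' = 0 := fun hne => by
    rw [h.vv_dot (o.le (inv_mem hg)), if_neg hne]
  set A := supp (vv t g⁻¹ a) with hA
  set B := supp (vv t g⁻¹ b) with hB
  set C := supp (vv t g⁻¹ c) with hC
  have i1 : B = A.image σ := himg a b hπa
  have i2 : C = B.image σ := himg b c hπb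
  have i3 : A = C.image σ := himg c a hπc
  have hinj := Finset.image_injective σ.injective
  have hAB : A = B := by
    by_contra hne
    have d1 := (supp_eq_or_disjoint (hY a (.inl rfl)) (hY b (.inr (.inl rfl))) (horth hab)).resolve_left hne
    rcases supp_eq_or_disjoint (hY a (.inl rfl)) (hY c (.inr (.inr rfl))) (horth hac) with e | d2
    · exact hne (by rw [i1]; nth_rewrite 1 [i3]; rw [show C = A from e.symm])
    rcases supp_eq_or_disjoint (hY b (.inr (.inl rfl))) (hY c (.inr (.inr rfl))) (horth hbc) with e | d3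
    · refine hne (hinj (show A.image σ = B.image σ from ?_))
      rw [← i1, ← i2]; exact e
    have hj : ∀ {d}, d = a ∨ d = b ∨ d = c → j ∉ supp (vv t g⁻¹ d) := fun hd hmem =>
      mem_supp.1 hmem (hzero _ hd)
    have hsub : A ∪ B ∪ C ⊆ Finset.univ.erase j := fun x hx' => by
      refine Finset.mem_erase.2 ⟨?_, Finset.mem_univ _⟩
      rintro rfl
      simp only [Finset.mem_union] at hx'
      rcases hx' with (hx' | hx') | hx'
      exacts [hj (.inl rfl) hx', hj (.inr (.inl rfl)) hx', hj (.inr (.inr rfl)) hx']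
    have := Finset.card_le_card hsub
    rw [Finset.card_union_of_disjoint (Finset.disjoint_union_left.2 ⟨d2, d3⟩),
      Finset.card_union_of_disjoint d1, hY a (.inl rfl), hY b (.inr (.inl rfl)),
      hY c (.inr (.inr rfl)), Finset.card_erase_of_mem (Finset.mem_univ _)] at this
    simp at this
  have hBC : B = C := by rw [i1, i2, ← hAB, ← i1]
  obtain ⟨p', q', hpq', hA'⟩ := Finset.card_eq_two.1 (hY a (.inl rfl))
  exact not_three_in_plane hpq' hA' (by rw [← hB, ← hAB, hA, hA']) (by rw [← hC, ← hBC, ← hAB, hA, hA'])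
    (hunit a) (horth hab) (horth hac) (horth hbc)

/-- A conjugate of a member with a zero coordinate forces monomiality. -/
theorem Over.mono_of_zero (o : Over t M) {g : G4} (hg : g ∈ M) {i k : Fin 5} (hz : vv t g i k = 0) :
    MonoAct t g := by
  have hle := o.fr.supp_le_two (o.fr.conj_t (o.le hg) i) (by rw [o.fr.vv_dot (o.le hg), if_pos rfl])
    (o.mono_of_image_zero hg hz)
  obtain ⟨l, hl⟩ := o.pm_of_vec hg (i := i) (by have := o.fus hg i; omega)
  exact o.stab' hg hl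

theorem Over.mono_of_mono_image (o : Over t M) {g : G4} (hg : g ∈ M) {i : Fin 5}
    (hm : MonoAct t (g * t i * g⁻¹)) : MonoAct t g := by
  have hle := o.fr.supp_le_two (o.fr.conj_t (o.le hg) i) (by rw [o.fr.vv_dot (o.le hg), if_pos rfl]) hm
  obtain ⟨l, hl⟩ := o.pm_of_vec hg (i := i) (by have := o.fus hg i; omega)
  exact o.stab' hg hl

/-- An element fixing every line and acting with both signs. -/
structure Diag (t : Fin 5 → G4) (X : G4) : Prop where
  line : ∀ l, Pm (X * t l * X⁻¹) (t l)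
  plus : ∃ i, X * t i * X⁻¹ = t i
  minus : ∃ k, X * t k * X⁻¹ = -t k

theorem Over.mono_of_pm_diag (o : Over t M) {g : G4} (hg : g ∈ M) {X : G4} (hX : Diag t X) {l : Fin 5}
    (e : Pm (X * (g * t l * g⁻¹) * X⁻¹) (g * t l * g⁻¹)) : MonoAct t g := by
  have h := o.fr
  obtain ⟨i, hi⟩ := hX.plus
  obtain ⟨k, hk⟩ := hX.minus
  have key : ∀ n, (X : M4) * ((g * t l * g⁻¹ : G4) * (t n : M4) + (t n : M4) * (g * t l * g⁻¹ : G4)) *
      (X⁻¹ : G4) = (2 * vv t g l n) • (1 : M4) := fun n => by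
    have e1 := h.vec_mul_add (vv t g l) (Pi.single n 1)
    rw [vec_single, one_smul, dotProduct_single, mul_one, ← h.conj_t (o.le hg)] at e1
    rw [e1, mul_smul_comm, smul_mul_assoc, mul_one, Units.mul_inv]
  have val : ∀ n, (X : M4) * ((g * t l * g⁻¹ : G4) * (t n : M4) + (t n : M4) * (g * t l * g⁻¹ : G4)) *
      (X⁻¹ : G4) = ((X * (g * t l * g⁻¹) * X⁻¹) * (X * t n * X⁻¹) : G4) +
        ((X * t n * X⁻¹) * (X * (g * t l * g⁻¹) * X⁻¹) : G4) := fun n => by
    rw [mul_add, add_mul, ← Units.val_mul, ← Units.val_mul, ← Units.val_mul, ← Units.val_mul,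
      ← Units.val_mul, ← Units.val_mul]
    congr 2 <;> group
  have orig : ∀ n, (((g * t l * g⁻¹) * t n : G4) : M4) + ((t n * (g * t l * g⁻¹) : G4) : M4) =
      (2 * vv t g l n) • (1 : M4) := fun n => by
    have e1 := h.vec_mul_add (vv t g l) (Pi.single n 1)
    rwa [vec_single, one_smul, dotProduct_single, mul_one, ← h.conj_t (o.le hg), ← Units.val_mul,
      ← Units.val_mul] at e1
  have zero : ∀ {n}, (2 * vv t g l n) • (1 : M4) = -((2 * vv t g l n) • (1 : M4)) → vv t g l n = 0 :=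
    fun {n} hh => by
    rw [← neg_smul] at hh
    have := one_smul_inj hh
    refine (mul_eq_zero.1 (?_ : (2 * 2 : F) * vv t g l n = 0)).resolve_left (mul_ne_zero h.two h.two)
    linear_combination this
  rcases e with e | e
  · refine o.mono_of_zero hg (i := l) (k := k) (zero ?_)
    conv_lhs => rw [← key k, val k, e, hk, mul_neg, neg_mul, Units.val_neg, Units.val_neg, ← neg_add, orig k]
  · refine o.mono_of_zero hg (i := l) (k := i) (zero ?_)
    conv_lhs => rw [← key i, val i, e, hi, mul_neg, neg_mul, Units.val_neg, Units.val_neg, ← neg_add, orig i]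

theorem Over.mono_of_fix_diag (o : Over t M) {g : G4} (hg : g ∈ M) {X : G4} (hX : Diag t X)
    (e : Pm (g * X * g⁻¹) X) : MonoAct t g := by
  refine o.mono_of_pm_diag hg hX (l := 0) ?_
  have hl := (hX.line 0).conj g
  rw [show g * (X * t 0 * X⁻¹) * g⁻¹ = (g * X * g⁻¹) * (g * t 0 * g⁻¹) * (g * X * g⁻¹)⁻¹ by group] at hl
  rcases e with e | e <;> rw [e] at hl
  · exact hl
  · rwa [inv_neg, mul_neg, neg_mul, neg_mul, neg_neg] at hl

theorem exists_fixed_of_sq : ∀ σ : Equiv.Perm (Fin 5), (∀ i, σ (σ i) = i) → ∃ l, σ l = l := by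
  decide +kernel

theorem Over.mono_of_conj_diag (o : Over t M) {g : G4} (hg : g ∈ M) {X : G4} (hX : Diag t X)
    (hXX : Pm (X * X) 1) (hm : MonoAct t (g * X * g⁻¹)) : MonoAct t g := by
  obtain ⟨σ, hσ⟩ := o.fr.exists_perm hm
  set z := g * X * g⁻¹ with hz
  obtain ⟨l, hl⟩ := exists_fixed_of_sq σ fun i => by
    by_contra hne
    refine o.fr.not_pm hne ?_
    refine ((hσ i).conj z).trans (hσ (σ i)) |>.symm.trans ?_
    rw [show z * (z * t i * z⁻¹) * z⁻¹ = (g * (X * X) * g⁻¹) * t i * (g * (X * X) * g⁻¹)⁻¹ by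
      rw [hz]; group]
    rcases hXX with e | e <;> rw [e] <;> left <;> simp
  have e := hl ▸ hσ l
  have := e.conj g⁻¹
  rw [inv_inv, hz, show g⁻¹ * (g * X * g⁻¹ * t l * (g * X * g⁻¹)⁻¹) * g = X * (g⁻¹ * t l * g) * X⁻¹ by
    group] at this
  have hinv : MonoAct t g⁻¹ :=
    o.mono_of_pm_diag (inv_mem hg) hX (l := l) (by rwa [inv_inv])
  simpa using o.fr.mono_inv hinv

theorem Fr.conj_eq_self_or_neg (h : Fr t) (i j : Fin 5) :
    t i * t j * (t i)⁻¹ = if i = j then t j else -t j := by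
  split_ifs with e
  · subst e; simp
  · rw [h.inv_t]
    apply Units.ext
    rw [Units.val_mul, Units.val_mul, Units.val_neg, h.anti e, neg_mul, mul_assoc, h.sq, mul_one]

theorem Fr.diag_two (h : Fr t) {i j : Fin 5} (hij : i ≠ j) : Diag t (t i * t j) := by
  have e : ∀ l, t i * t j * t l * (t i * t j)⁻¹ = t i * (t j * t l * (t j)⁻¹) * (t i)⁻¹ := fun l => by group
  refine ⟨fun l => ?_, ?_, ⟨i, ?_⟩⟩
  · rw [e, h.conj_eq_self_or_neg]
    split_ifs <;> simp only [mul_neg, neg_mul, h.conj_eq_self_or_neg] <;> split_ifs <;> simp [Pm]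
  · obtain ⟨k, hki, hkj⟩ := (by decide : ∀ i j : Fin 5, ∃ k, k ≠ i ∧ k ≠ j) i j
    refine ⟨k, ?_⟩
    rw [e, h.conj_eq_self_or_neg, if_neg hkj.symm, mul_neg, neg_mul, h.conj_eq_self_or_neg, if_neg hki.symm,
      neg_neg]
  · rw [e, h.conj_eq_self_or_neg, if_neg hij.symm, mul_neg, neg_mul, h.conj_eq_self_or_neg, if_pos rfl]

theorem Fr.diag_three (h : Fr t) {l : Fin 5} (h0 : l ≠ 0) (h1 : l ≠ 1) : Diag t (t l * (t 0 * t 1)) := by
  have e : ∀ n, t l * (t 0 * t 1) * t n * (t l * (t 0 * t 1))⁻¹ =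
      t l * (t 0 * t 1 * t n * (t 0 * t 1)⁻¹) * (t l)⁻¹ := fun n => by group
  have d := h.diag_two (show (0 : Fin 5) ≠ 1 by decide)
  have f : ∀ n, t 0 * t 1 * t n * (t 0 * t 1)⁻¹ = t 0 * (t 1 * t n * (t 1)⁻¹) * (t 0)⁻¹ := fun n => by group
  refine ⟨fun n => ?_, ⟨0, ?_⟩, ?_⟩
  · rw [e]
    refine ((d.line n).conj (t l)).trans ?_
    rw [h.conj_eq_self_or_neg]
    split_ifs <;> simp [Pm]
  · rw [e, f, h.conj_eq_self_or_neg, if_neg (by decide), mul_neg, neg_mul, h.conj_eq_self_or_neg,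
      if_pos rfl, mul_neg, neg_mul, h.conj_eq_self_or_neg, if_neg h0, neg_neg]
  · obtain ⟨k, hk, hk0, hk1⟩ := (by decide : ∀ l : Fin 5, ∃ k, k ≠ l ∧ k ≠ 0 ∧ k ≠ 1) l
    refine ⟨k, ?_⟩
    rw [e, f, h.conj_eq_self_or_neg, if_neg hk1.symm, mul_neg, neg_mul, h.conj_eq_self_or_neg,
      if_neg hk0.symm, neg_neg, h.conj_eq_self_or_neg, if_neg hk.symm]

/-- The signs as a normal subgroup. -/
def signs : Subgroup G4 where
  carrier := {g | g = 1 ∨ g = -1}
  one_mem' := Or.inl rfl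
  mul_mem' := by rintro a b (rfl | rfl) (rfl | rfl) <;> simp
  inv_mem' := by rintro a (rfl | rfl) <;> simp

instance : (signs (F := F)).Normal := ⟨by rintro n (rfl | rfl) g <;> simp [signs]⟩

theorem mk_eq_iff {g g' : G4} : (g : G4 ⧸ signs (F := F)) = g' ↔ Pm g g' := by
  rw [QuotientGroup.eq]
  constructor
  · rintro (e | e)
    · exact Or.inl (inv_mul_eq_one.1 e)
    · right
      rw [inv_mul_eq_iff_eq_mul, mul_neg_one] at e
      rw [e, neg_neg]
  · rintro (rfl | rfl) <;> simp [signs]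

theorem neg_one_ne (h2 : (2 : F) ≠ 0) : (-1 : G4) ≠ 1 := fun e =>
  H66.Minus.eq_neg_self_false (g := (1 : G4)) h2 (by rw [← Units.val_neg, e])

/-- Without exceptional stabilisers the overgroup is monomial. -/
theorem Over.mono_of_mem [Fintype F] (o : Over t M) {c : G4} (hc : c ∈ M) : MonoAct t c := by
  classical
  have h := o.fr
  set a := t 4 with ha
  set b := c * (t 0 * t 1) * c⁻¹ with hb
  have ht01 : (t 0 * t 1) * (t 0 * t 1) = -1 := by
    apply Units.ext
    simp only [Units.val_mul, Units.val_neg, Units.val_one, mul_assoc]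
    rw [h.anti_mul (show (1 : Fin 5) ≠ 0 by decide), mul_neg, h.sq_mul, h.sq]
  have hbM : b ∈ M := mul_mem (mul_mem hc (mul_mem (o.t_mem 0) (o.t_mem 1))) (inv_mem hc)
  set p := a * b with hp
  have hpM : p ∈ M := mul_mem (o.t_mem 4) hbM
  let φ : G4 →* G4 ⧸ signs (F := F) := QuotientGroup.mk' _
  have hφ : ∀ {x y}, φ x = φ y ↔ Pm x y := mk_eq_iff
  have hA : φ a * φ a = 1 := by rw [← map_mul, h.sq', map_one]
  have hB : φ b * φ b = 1 := by
    rw [← map_mul, ← map_one φ, hφ, hb, show c * (t 0 * t 1) * c⁻¹ * (c * (t 0 * t 1) * c⁻¹) =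
      c * (t 0 * t 1 * (t 0 * t 1)) * c⁻¹ by group, ht01]
    exact Or.inr (by simp)
  have hAi : (φ a)⁻¹ = φ a := inv_eq_of_mul_eq_one_right hA
  have hBi : (φ b)⁻¹ = φ b := inv_eq_of_mul_eq_one_right hB
  have hP : ∀ k : ℕ, φ a * φ p ^ k * φ a = (φ p ^ k)⁻¹ := fun k => by
    calc φ a * φ p ^ k * φ a = φ a * φ p ^ k * (φ a)⁻¹ := by rw [hAi]
      _ = (φ a * φ p * (φ a)⁻¹) ^ k := conj_pow.symm
      _ = (φ p)⁻¹ ^ k := by
        congr 1
        rw [show φ p = φ a * φ b from map_mul φ a b, _root_.mul_inv_rev, hAi, hBi, ← mul_assoc, hA, one_mul]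
      _ = _ := inv_pow _ _
  have hq : ∀ i : ℕ, φ (p ^ i * a * (p ^ i)⁻¹) = φ p ^ (2 * i) * φ a := fun i => by
    rw [map_mul, map_mul, map_inv, map_pow, two_mul, pow_add]
    conv_lhs => rw [← hP i]
    rw [mul_assoc, ← mul_assoc (φ a) (φ a * φ p ^ i), ← mul_assoc (φ a) (φ a), hA, one_mul, mul_assoc]
  have hex : ∃ n, 0 < n ∧ φ p ^ n = 1 := ⟨orderOf p, orderOf_pos p, by
    rw [← map_pow, pow_orderOf_eq_one, map_one]⟩
  obtain ⟨hn0, hn⟩ := Nat.find_spec hex
  obtain ⟨m, hm | hm⟩ := Nat.even_or_odd' (Nat.find hex)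
  swap
  · exfalso
    rw [hm, pow_succ] at hn
    have e : φ (p ^ m * a * (p ^ m)⁻¹) = φ b := by
      rw [hq, eq_inv_of_mul_eq_one_left hn, show φ p = φ a * φ b from map_mul φ a b, _root_.mul_inv_rev, mul_assoc, hAi, hA, mul_one, hBi]
    have e1 : (p ^ m * a * (p ^ m)⁻¹) * (p ^ m * a * (p ^ m)⁻¹) = 1 := by
      rw [show p ^ m * a * (p ^ m)⁻¹ * (p ^ m * a * (p ^ m)⁻¹) = p ^ m * (a * a) * (p ^ m)⁻¹ by group,
        h.sq', mul_one, mul_inv_cancel]
    have e2 : b * b = -1 := by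
      rw [hb, show c * (t 0 * t 1) * c⁻¹ * (c * (t 0 * t 1) * c⁻¹) = c * (t 0 * t 1 * (t 0 * t 1)) * c⁻¹ by
        group, ht01]
      simp
    rcases hφ.1 e with e3 | e3 <;> rw [e3] at e1
    · exact neg_one_ne h.two (e2.symm.trans e1)
    · rw [neg_mul_neg] at e1
      exact neg_one_ne h.two (e2.symm.trans e1)
  set z := p ^ m with hz
  have hzM : z ∈ M := pow_mem hpM m
  have hz2 : φ z * φ z = 1 := by
    rw [hz, map_pow, ← pow_add, ← two_mul, ← hm]; exact hn
  have hz1 : φ z ≠ 1 := fun e => by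
    rw [hz, map_pow] at e
    have h0 : m ≠ 0 := by omega
    have := Nat.find_min' hex ⟨Nat.pos_of_ne_zero h0, e⟩
    omega
  have hzi : (φ z)⁻¹ = φ z := inv_eq_of_mul_eq_one_right hz2
  have hza : φ a * φ z * φ a = φ z := by
    rw [hz, map_pow, hP]
    rwa [hz, map_pow] at hzi
  have hzaz : φ z * φ a = φ a * φ z := by
    conv_lhs => rw [← hza, mul_assoc, hA, mul_one]
  have hzb : φ b * φ z = φ z * φ b := by
    have e : φ b = φ a * φ p := by
      rw [show φ p = φ a * φ b from map_mul φ a b, ← mul_assoc, hA, one_mul]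
    have e' : φ p * φ z = φ z * φ p := by
      rw [← map_mul, ← map_mul, hz, ← pow_succ', pow_succ]
    rw [e, mul_assoc, e', ← mul_assoc, ← hzaz, mul_assoc]
  have hzm : MonoAct t z := by
    refine o.stab z hzM 4 (hφ.1 ?_)
    rw [← ha, map_mul, map_mul, map_inv, hzi, hzaz, mul_assoc, hz2, mul_one]
  obtain ⟨i, hi | hi⟩ := Nat.even_or_odd' m
  · set g := p ^ i
    have hgM : g ∈ M := pow_mem hpM i
    have eq : φ (g * a * g⁻¹) = φ z * φ a := by rw [hq, hz, map_pow, hi]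
    have hg : MonoAct t g := by
      have hpm : Pm (a * (g * t 4 * g⁻¹) * a⁻¹) (g * t 4 * g⁻¹) := by
        refine hφ.1 ?_
        rw [map_mul, map_mul, map_inv, ← ha, eq, hAi, ← mul_assoc, ← hzaz, mul_assoc (φ z) (φ a), hA,
          mul_one]
      rcases hpm with e | e
      · exfalso
        have e' : (t 4 : M4) * vec t (vv t g 4) = vec t (vv t g 4) * t 4 := by
          rw [← h.conj_t (o.le hgM), ← Units.val_mul, ← Units.val_mul]
          exact congrArg Units.val (mul_inv_eq_iff_eq_mul.1 e)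
        have hs := h.commute_t.1 e'
        have h1 := eq_or_neg_of_vec (h.conj_t (o.le hgM) 4)
          (eq_single_of_supp (by rw [h.vv_dot (o.le hgM), if_pos rfl]) hs)
        have h2 := eq.symm.trans (hφ.2 h1)
        rw [← ha] at h2
        exact hz1 (mul_eq_right.1 h2)
      · refine o.mono_of_zero hgM (i := 4) (k := 4) (h.commute_t.2 ?_)
        rw [← h.conj_t (o.le hgM), ← Units.val_mul, ← Units.val_mul, ← Units.val_neg]
        exact congrArg Units.val ((mul_inv_eq_iff_eq_mul.1 e).trans (neg_mul _ _))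
    obtain ⟨l, hl⟩ := hg 4
    have ez : φ z = φ (t l * t 4) := by
      have h1 : φ z * φ a = φ (t l) := eq.symm.trans (hφ.2 hl)
      rw [map_mul, ← ha, ← h1, mul_assoc, hA, mul_one]
    have hl4 : l ≠ 4 := fun e => hz1 (by rw [ez, e, h.sq', map_one])
    have hbm : MonoAct t b := o.mono_of_fix_diag hbM (h.diag_two hl4) (hφ.1 (by
      rw [map_mul, map_mul, map_inv, ← ez, hzb, mul_assoc, mul_inv_cancel, mul_one]))
    exact o.mono_of_conj_diag hc (h.diag_two (by decide)) (Or.inr ht01) hbm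
  · set g := c⁻¹ * p ^ i with hg
    have hgM : g ∈ M := mul_mem (inv_mem hc) (pow_mem hpM i)
    have eq : φ (p ^ i * a * (p ^ i)⁻¹) = φ z * φ b := by
      rw [hq, hz, map_pow, hi, pow_succ, show φ p = φ a * φ b from map_mul φ a b, mul_assoc (_ : G4 ⧸ signs (F := F)), mul_assoc (φ a),
        hB, mul_one]
    have hgm : MonoAct t g := by
      refine o.mono_of_pm_diag hgM (h.diag_two (show (0 : Fin 5) ≠ 1 by decide)) (l := 4) ?_
      have e1 : Pm (b * (p ^ i * a * (p ^ i)⁻¹) * b⁻¹) (p ^ i * a * (p ^ i)⁻¹) := by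
        refine hφ.1 ?_
        rw [map_mul, map_mul, map_inv, eq, hBi, ← mul_assoc, hzb, mul_assoc (φ z) (φ b), hB, mul_one]
      have e2 := e1.conj c⁻¹
      rw [inv_inv] at e2
      rw [hg, ← ha]
      convert e2 using 1
      · rw [hb]; group
      · group
    obtain ⟨l, hl⟩ := hgm 4
    have ez : φ z = φ (c * (t l * (t 0 * t 1)) * c⁻¹) := by
      have h1 : φ z = φ (p ^ i * a * (p ^ i)⁻¹) * φ b := by rw [eq, mul_assoc, hB, mul_one]
      rw [h1, ← map_mul, show p ^ i * a * (p ^ i)⁻¹ * b = c * ((g * t 4 * g⁻¹) * (t 0 * t 1)) * c⁻¹ by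
        rw [hg, hb, ha]; group]
      rcases hl with e | e <;> rw [e]
      exact hφ.2 (Or.inr (by simp))
    have hm' : MonoAct t (c * (t l * (t 0 * t 1)) * c⁻¹) := by
      intro j
      obtain ⟨j', hj'⟩ := hzm j
      refine ⟨j', ?_⟩
      rcases hφ.1 ez with e | e <;> rw [e] at hj'
      · exact hj'
      · simpa using hj'
    by_cases h0 : l = 0
    · refine o.mono_of_mono_image hc (i := 1) ?_
      rwa [h0, ← mul_assoc (t 0), h.sq', one_mul] at hm'
    by_cases h1 : l = 1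
    · refine o.mono_of_mono_image hc (i := 0) ?_
      have e : t 1 * (t 0 * t 1) = -t 0 := by
        apply Units.ext
        simp only [Units.val_mul, Units.val_neg]
        rw [h.anti_mul (show (1 : Fin 5) ≠ 0 by decide), h.sq, mul_one]
      intro j
      obtain ⟨j', hj'⟩ := hm' j
      rw [h1, e] at hj'
      exact ⟨j', by simpa using hj'⟩
    refine o.mono_of_conj_diag hc (h.diag_three h0 h1) ?_ hm'
    refine hφ.1 ?_
    rw [show φ 1 = 1 from map_one φ]
    have e3 : φ (c * (t l * (t 0 * t 1) * (t l * (t 0 * t 1))) * c⁻¹) = 1 := by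
      rw [show c * (t l * (t 0 * t 1) * (t l * (t 0 * t 1))) * c⁻¹ =
        c * (t l * (t 0 * t 1)) * c⁻¹ * (c * (t l * (t 0 * t 1)) * c⁻¹) by group, map_mul, ← ez, hz2]
    rwa [map_mul, map_mul, map_inv, mul_inv_eq_one, mul_eq_left] at e3

end Cfsg.Agent.H1.SpC6
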