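import Cfsg.Agent.H1.SpC6.Strong
import Cfsg.Agent.H1.SpC6.Local
import Cfsg.Agent.H1.SpC6.Quat

/-!
The centraliser of one member of a frame as a product of two copies of `SL₂`.
-/

set_option autoImplicit false

open Matrix MatrixGroups

namespace Cfsg.Agent.H1.SpC6

variable {F : Type*} [Field F]

local notation "M4" => Matrix (Fin 2 ⊕ Fin 2) (Fin 2 ⊕ Fin 2) F
local notation "G4" => GL (Fin 2 ⊕ Fin 2) F

variable {t : Fin 5 → GL (Fin 2 ⊕ Fin 2) F} {a b : F}

theorem QPar.cpar (q : QPar a b) : CPar (-1) a b := ⟨q.two, neg_ne_zero.2 one_ne_zero, q.eq⟩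

theorem Fr.mul_sq (h : Fr t) {i j : Fin 5} (hij : i ≠ j) :
    (t i : M4) * t j * ((t i : M4) * t j) = -1 := by
  rw [mul_assoc, h.anti_mul hij.symm, h.sq, mul_one, mul_neg, h.sq]

theorem Fr.three_four (h : Fr t) : (t 3 : M4) * t 4 = (t 2 : M4) * ((t 1 : M4) * t 0) := by
  calc (t 3 : M4) * t 4
      = (t 2 : M4) * ((t 1 : M4) * ((t 0 : M4) * ((t 0 : M4) * t 1 * t 2 * t 3 * t 4))) := by
        simp only [mul_assoc, h.sq_mul]
    _ = _ := by rw [h.prod, mul_one]

/-- The pair acting on the two eigenspaces of the last member. -/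
def frameBasis (h : Fr t) : QuaternionAlgebra.Basis M4 (-1 : F) (0 : F) (-1 : F) where
  i := (t 1 : M4) * t 2
  j := (t 2 : M4) * t 0
  k := (t 1 : M4) * t 0
  i_mul_i := by rw [h.mul_sq (by decide), neg_one_smul, zero_smul, add_zero]
  j_mul_j := by rw [h.mul_sq (by decide), neg_one_smul]
  i_mul_j := by rw [mul_assoc, h.sq_mul]
  j_mul_i := by
    rw [mul_assoc, h.anti_mul (show (0 : Fin 5) ≠ 1 by decide), mul_neg, h.anti (show (0 : Fin 5) ≠ 2 by decide),
      mul_neg, mul_neg, neg_neg, h.anti_mul (show (2 : Fin 5) ≠ 1 by decide), h.sq_mul, zero_smul, zero_sub]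

/-- Two by two matrices commuting with the last two members. -/
noncomputable def Fr.psi (h : Fr t) (q : QPar a b) : Matrix (Fin 2) (Fin 2) F →ₐ[F] M4 :=
  quatEmb q.cpar (frameBasis h)

theorem Fr.comm_pair (h : Fr t) {i j k : Fin 5} (hij : k ≠ i) (hkj : k ≠ j) :
    (t k : M4) * ((t i : M4) * (t j : M4)) = (t i : M4) * (t j : M4) * (t k : M4) := by
  rw [h.anti_mul hij, h.anti hkj, mul_neg, neg_neg, mul_assoc]

theorem Fr.psi_comm (h : Fr t) (q : QPar a b) {k : Fin 5} (h0 : k ≠ 0) (h1 : k ≠ 1) (h2 : k ≠ 2)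
    (X : Matrix (Fin 2) (Fin 2) F) : (t k : M4) * h.psi q X = h.psi q X * t k := by
  obtain ⟨w, x, y, z, hX⟩ := exists_coords q.cpar X
  rw [Fr.psi, quatEmb_eq q.cpar _ hX]
  simp only [mul_add, add_mul, mul_smul_comm, smul_mul_assoc, mul_one, one_mul, frameBasis,
    h.comm_pair h1 h2, h.comm_pair h2 h0, h.comm_pair h1 h0]

theorem Fr.adj_pair (h : Fr t) {i j : Fin 5} (hij : i ≠ j) :
    adj ((t i : M4) * (t j : M4)) = -((t i : M4) * (t j : M4)) := by
  rw [adj_mul, h.adj_t, h.adj_t, h.anti hij.symm]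

theorem Fr.adj_psi (h : Fr t) (q : QPar a b) (X : Matrix (Fin 2) (Fin 2) F) :
    adj (h.psi q X) = h.psi q (X.adjugate) := by
  obtain ⟨w, x, y, z, hX⟩ := exists_coords q.cpar X
  have hA : X.adjugate = !![w + a * (-y) + b * (-z), -x + b * (-y) - a * (-z);
      -(-x) + b * (-y) - a * (-z), w - a * (-y) - b * (-z)] := by
    rw [hX, adjugate_fin_two_of]
    ext u v
    fin_cases u <;> fin_cases v <;> simp <;> ring
  rw [Fr.psi, quatEmb_eq q.cpar _ hX, quatEmb_eq q.cpar _ hA]
  simp only [adj_add, adj_smul, adj_one, frameBasis, h.adj_pair (show (1 : Fin 5) ≠ 2 by decide),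
    h.adj_pair (show (2 : Fin 5) ≠ 0 by decide), h.adj_pair (show (1 : Fin 5) ≠ 0 by decide), smul_neg, neg_smul]

/-- The projection to an eigenspace of the last member. -/
def eig (t : Fin 5 → G4) (s : F) : M4 := (2 : F)⁻¹ • (1 + s • (t 4 : M4))

theorem Fr.eig_mul (h : Fr t) {s : F} (hs : s * s = 1) (s' : F) :
    eig t s * eig t s' = ((1 + s * s') / 2) • eig t s := by
  have := h.two
  simp only [eig, smul_mul_smul_comm, mul_add, add_mul, mul_one, one_mul, h.sq, smul_smul, smul_add]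
  match_scalars
  · field_simp
  · field_simp
    linear_combination (-s') * hs

theorem eig_add (h : Fr t) : eig t 1 + eig t (-1) = 1 := by
  have := h.two
  simp only [eig]
  match_scalars <;> field_simp <;> ring

theorem Fr.eig_comm_psi (h : Fr t) (q : QPar a b) (s : F) (X : Matrix (Fin 2) (Fin 2) F) :
    eig t s * h.psi q X = h.psi q X * eig t s := by
  simp only [eig, smul_mul_assoc, mul_smul_comm, add_mul, mul_add, one_mul, mul_one,
    h.psi_comm q (show (4 : Fin 5) ≠ 0 by decide) (by decide) (by decide)]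

/-- A pair of matrices on the two eigenspaces. -/
noncomputable def Fr.both (h : Fr t) (q : QPar a b) (X Y : Matrix (Fin 2) (Fin 2) F) : M4 :=
  eig t 1 * h.psi q X + eig t (-1) * h.psi q Y

theorem Fr.both_one (h : Fr t) (q : QPar a b) : h.both q 1 1 = 1 := by
  rw [Fr.both, map_one, mul_one, mul_one, eig_add h]

theorem Fr.both_mul (h : Fr t) (q : QPar a b) (X Y X' Y' : Matrix (Fin 2) (Fin 2) F) :
    h.both q X Y * h.both q X' Y' = h.both q (X * X') (Y * Y') := by
  have key : ∀ s s' : F, ∀ A B : Matrix (Fin 2) (Fin 2) F, s * s = 1 →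
      eig t s * h.psi q A * (eig t s' * h.psi q B) = ((1 + s * s') / 2) • (eig t s * h.psi q (A * B)) :=
    fun s s' A B hs => by
      rw [mul_assoc, ← mul_assoc (h.psi q A), ← h.eig_comm_psi, mul_assoc (eig t s'), ← map_mul, ← mul_assoc,
        h.eig_mul hs, smul_mul_assoc]
  have := h.two
  simp only [Fr.both, mul_add, add_mul]
  rw [key 1 1 _ _ (one_mul 1), key 1 (-1) _ _ (one_mul 1), key (-1) 1 _ _ (by norm_num),
    key (-1) (-1) _ _ (by norm_num)]
  norm_num [h.two]

theorem Fr.adj_both (h : Fr t) (q : QPar a b) (X Y : Matrix (Fin 2) (Fin 2) F) :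
    adj (h.both q X Y) = h.both q X.adjugate Y.adjugate := by
  have e : ∀ s : F, adj (eig t s) = eig t s := fun s => by
    simp only [eig, adj_smul, adj_add, adj_one, h.adj_t]
  simp only [Fr.both, adj_add, adj_mul, e, h.adj_psi, h.eig_comm_psi]

/-- Pairs of unimodular matrices as units. -/
noncomputable def Fr.theta (h : Fr t) (q : QPar a b) : SL(2, F) × SL(2, F) →* G4 :=
  MonoidHom.toHomUnits
    { toFun := fun p => h.both q (p.1 : Matrix (Fin 2) (Fin 2) F) (p.2 : Matrix (Fin 2) (Fin 2) F)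
      map_one' := by
        simpa using h.both_one q
      map_mul' := fun p p' => by
        rw [h.both_mul]
        rfl }

theorem Fr.theta_val (h : Fr t) (q : QPar a b) (x y : SL(2, F)) :
    (h.theta q (x, y) : M4) = h.both q (x : Matrix (Fin 2) (Fin 2) F) (y : Matrix (Fin 2) (Fin 2) F) := rfl

theorem Fr.theta_sp (h : Fr t) (q : QPar a b) (p : SL(2, F) × SL(2, F)) : h.theta q p ∈ Cfsg.spGL 2 F := by
  obtain ⟨x, y⟩ := p
  rw [mem_spGL_iff, h.theta_val, h.adj_both, h.both_mul, Matrix.adjugate_mul, Matrix.adjugate_mul, x.2, y.2,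
    one_smul, h.both_one]

theorem Fr.theta_comm_four (h : Fr t) (q : QPar a b) (p : SL(2, F) × SL(2, F)) :
    h.theta q p * t 4 * (h.theta q p)⁻¹ = t 4 := by
  obtain ⟨x, y⟩ := p
  rw [mul_inv_eq_iff_eq_mul]
  apply Units.ext
  rw [Units.val_mul, Units.val_mul, h.theta_val]
  simp only [Fr.both, eig, add_mul, mul_add, smul_mul_assoc, mul_smul_comm, one_mul, mul_assoc,
    ← h.psi_comm q (show (4 : Fin 5) ≠ 0 by decide) (by decide) (by decide)]

theorem Fr.theta_three (h : Fr t) (q : QPar a b) (x y : SL(2, F)) :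
    h.theta q (x, y) * t 3 = t 3 * h.theta q (y, x) := by
  apply Units.ext
  rw [Units.val_mul, Units.val_mul, h.theta_val, h.theta_val]
  have e : ∀ s : F, ∀ X, eig t s * h.psi q X * (t 3 : M4) = (t 3 : M4) * (eig t (-s) * h.psi q X) := by
    intro s X
    rw [mul_assoc, ← h.psi_comm q (show (3 : Fin 5) ≠ 0 by decide) (by decide) (by decide), ← mul_assoc,
      ← mul_assoc]
    congr 1
    simp only [eig, smul_mul_assoc, mul_smul_comm, add_mul, mul_add, one_mul, mul_one,
      h.anti (show (4 : Fin 5) ≠ 3 by decide), smul_neg, neg_smul, mul_neg]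
  simp only [Fr.both, add_mul, e, neg_neg, mul_add]
  rw [add_comm]

/-- The involution orthogonal to the last member attached to a unimodular matrix. -/
noncomputable def Fr.tau (h : Fr t) (q : QPar a b) (g : SL(2, F)) : G4 := t 3 * h.theta q (g, g⁻¹)

theorem Fr.theta_conj_tau (h : Fr t) (q : QPar a b) (x y g : SL(2, F)) :
    h.theta q (x, y) * h.tau q g * (h.theta q (x, y))⁻¹ = h.tau q (y * g * x⁻¹) := by
  rw [Fr.tau, Fr.tau, ← mul_assoc, h.theta_three, ← map_inv, mul_assoc, mul_assoc, ← map_mul, ← map_mul,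
    Prod.inv_mk, Prod.mk_mul_mk, Prod.mk_mul_mk]
  congr 3
  · rw [mul_assoc]
  · group

theorem Fr.tau_eq_vec (h : Fr t) (q : QPar a b) {g : SL(2, F)} {w x y z : F}
    (hg : (g : Matrix (Fin 2) (Fin 2) F) =
      !![w + a * y + b * z, x + b * y - a * z; -x + b * y - a * z, w - a * y - b * z]) :
    (h.tau q g : M4) = vec t ![x, y, -z, w, 0] := by
  have hA : ((g⁻¹ : SL(2, F)) : Matrix (Fin 2) (Fin 2) F) = !![w + a * (-y) + b * (-z),
      -x + b * (-y) - a * (-z); -(-x) + b * (-y) - a * (-z), w - a * (-y) - b * (-z)] := by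
    rw [Matrix.SpecialLinearGroup.coe_inv, hg, adjugate_fin_two_of]
    ext u v
    fin_cases u <;> fin_cases v <;> simp <;> ring
  have c0 : (t 3 : M4) * ((t 4 : M4) * ((t 1 : M4) * t 2)) = t 0 := by
    rw [← mul_assoc, h.three_four]
    simp only [mul_assoc]
    rw [h.anti_mul (show (0 : Fin 5) ≠ 1 by decide), mul_neg, h.sq_mul,
      h.anti (show (0 : Fin 5) ≠ 2 by decide), mul_neg, mul_neg, neg_neg, h.sq_mul]
  have c1 : (t 3 : M4) * ((t 4 : M4) * ((t 2 : M4) * t 0)) = t 1 := by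
    rw [← mul_assoc, h.three_four]
    simp only [mul_assoc]
    rw [h.anti (show (2 : Fin 5) ≠ 0 by decide), mul_neg, mul_neg, mul_neg, h.sq_mul,
      h.anti (show (1 : Fin 5) ≠ 2 by decide), mul_neg, neg_neg, h.sq_mul]
  have c2 : (t 3 : M4) * ((t 4 : M4) * ((t 1 : M4) * t 0)) = -(t 2 : M4) := by
    rw [← mul_assoc, h.three_four]
    have e := h.mul_sq (show (1 : Fin 5) ≠ 0 by decide)
    rw [mul_assoc, e, mul_neg_one]
  have v : vec t ![x, y, -z, w, 0] =
      x • (t 0 : M4) + y • (t 1 : M4) + (-z) • (t 2 : M4) + w • (t 3 : M4) := by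
    rw [vec, Fin.sum_univ_five]
    simp
  have := h.two
  rw [v, Fr.tau, Units.val_mul, h.theta_val, Fr.both, Fr.psi, quatEmb_eq q.cpar _ hg, quatEmb_eq q.cpar _ hA]
  simp only [eig, mul_add, add_mul, smul_mul_assoc, mul_smul_comm, one_mul, mul_one, frameBasis, c0, c1, c2,
    smul_neg, neg_smul, neg_mul, mul_neg, neg_neg]
  match_scalars <;> field_simp <;> ring

theorem Fr.tau_one (h : Fr t) (q : QPar a b) : h.tau q 1 = t 3 := by
  rw [Fr.tau, inv_one, show ((1 : SL(2, F)), (1 : SL(2, F))) = 1 from rfl, map_one, mul_one]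

theorem Fr.tau_neg (h : Fr t) (q : QPar a b) (g : SL(2, F)) : h.tau q (-g) = -h.tau q g := by
  apply Units.ext
  rw [Units.val_neg, Fr.tau, Fr.tau, Units.val_mul, Units.val_mul, h.theta_val, h.theta_val, inv_neg]
  simp [Fr.both, mul_add]
  abel

theorem Fr.tau_units (h : Fr t) (q : QPar a b) :
    h.tau q qi = t 0 ∧ h.tau q (qj q) = t 1 ∧ h.tau q (qk q) = -t 2 := by
  have e : ∀ {g : SL(2, F)} {w x y z : F}, g 0 0 = w + a * y + b * z → g 0 1 = x + b * y - a * z →
      g 1 0 = -x + b * y - a * z → g 1 1 = w - a * y - b * z →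
      (h.tau q g : M4) = vec t ![x, y, -z, w, 0] := fun {g w x y z} e00 e01 e10 e11 => by
    refine h.tau_eq_vec q ?_
    ext u v
    fin_cases u <;> fin_cases v <;> simp [e00, e01, e10, e11]
  refine ⟨Units.ext ?_, Units.ext ?_, Units.ext ?_⟩
  · rw [e (w := 0) (x := 1) (y := 0) (z := 0) (by simp [qi]) (by simp [qi]) (by simp [qi]) (by simp [qi]),
      vec, Fin.sum_univ_five]
    simp
  · rw [e (w := 0) (x := 0) (y := 1) (z := 0) (by simp [qj]) (by simp [qj]) (by simp [qj]) (by simp [qj]),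
      vec, Fin.sum_univ_five]
    simp
  · rw [e (w := 0) (x := 0) (y := 0) (z := 1) (by simp [qk, qi, qj, H6.sl2_mul])
      (by simp [qk, qi, qj, H6.sl2_mul]) (by simp [qk, qi, qj, H6.sl2_mul]) (by simp [qk, qi, qj, H6.sl2_mul]),
      vec, Fin.sum_univ_five, Units.val_neg]
    simp

theorem Fr.tau_q8 (h : Fr t) (q : QPar a b) {g : SL(2, F)} (hg : g ∈ q8 q) :
    ∃ m, h.tau q g = t m ∨ h.tau q g = -t m := by
  obtain ⟨u0, u1, u2⟩ := h.tau_units q
  have key : ∀ {g' : SL(2, F)} {m : Fin 5}, H6.π g = H6.π g' → (h.tau q g' = t m ∨ h.tau q g' = -t m) →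
      ∃ m, h.tau q g = t m ∨ h.tau q g = -t m := fun {g' m} e hm => by
    refine ⟨m, ?_⟩
    rcases H6.π_eq_iff.1 e with rfl | rfl
    · exact hm
    · rw [h.tau_neg]
      rcases hm with hm | hm <;> rw [hm] <;> simp
  rcases q8_cases q hg with e | e | e | e
  · exact key (g' := 1) (by rw [e, map_one]) (Or.inl (h.tau_one q))
  · exact key e (Or.inl u0)
  · exact key e (Or.inl u1)
  · exact key e (Or.inr u2)

/-- Monomial pairs give monomial elements. -/
theorem Fr.theta_mono (h : Fr t) (q : QPar a b) {x y : SL(2, F)} (hx : Nrm q x) (hz : x⁻¹ * y ∈ q8 q) :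
    MonoAct t (h.theta q (x, y)) := by
  have img : ∀ g ∈ q8 q, ∃ m, h.theta q (x, y) * h.tau q g * (h.theta q (x, y))⁻¹ = t m ∨
      h.theta q (x, y) * h.tau q g * (h.theta q (x, y))⁻¹ = -t m := fun g hg => by
    rw [h.theta_conj_tau]
    refine h.tau_q8 q ?_
    rw [show y * g * x⁻¹ = x * (x⁻¹ * y * g) * x⁻¹ by group]
    exact hx.conj_mem (mul_mem hz hg)
  intro i
  obtain ⟨u0, u1, u2⟩ := h.tau_units q
  match i with
  | 0 => exact u0 ▸ img _ (qi_mem q)
  | 1 => exact u1 ▸ img _ (qj_mem q)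
  | 2 =>
    obtain ⟨m, hm⟩ := img _ (qk_mem q)
    refine ⟨m, ?_⟩
    rw [u2, mul_neg, neg_mul, neg_eq_iff_eq_neg, neg_eq_iff_eq_neg, neg_neg] at hm
    exact hm.symm
  | 3 => exact h.tau_one q ▸ img 1 (one_mem _)
  | 4 => exact ⟨4, Or.inl (h.theta_comm_four q _)⟩

/-- The centraliser of the last member consists of pairs. -/
theorem Fr.exists_theta (h : Fr t) (q : QPar a b) {g : G4} (hg : g ∈ Cfsg.spGL 2 F)
    (hc : g * t 4 * g⁻¹ = t 4) : ∃ x y, g = h.theta q (x, y) := by
  let R : Set M4 := Set.range fun p : Matrix (Fin 2) (Fin 2) F × Matrix (Fin 2) (Fin 2) F => h.both q p.1 p.2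
  let S : Submodule F M4 :=
    { carrier := R
      add_mem' := by
        rintro _ _ ⟨⟨X, Y⟩, rfl⟩ ⟨⟨X', Y'⟩, rfl⟩
        exact ⟨(X + X', Y + Y'), by simp only [Fr.both, map_add, mul_add]; abel⟩
      zero_mem' := ⟨(0, 0), by simp [Fr.both]⟩
      smul_mem' := by
        rintro r _ ⟨⟨X, Y⟩, rfl⟩
        exact ⟨(r • X, r • Y), by simp [Fr.both, map_smul, mul_smul_comm]⟩ }
  have hmul : ∀ {A B : M4}, A ∈ S → B ∈ S → A * B ∈ S := by
    rintro _ _ ⟨⟨X, Y⟩, rfl⟩ ⟨⟨X', Y'⟩, rfl⟩
    exact ⟨(X * X', Y * Y'), (h.both_mul q _ _ _ _).symm⟩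
  have hpsi : ∀ X, h.psi q X ∈ S := fun X => ⟨(X, X), by
    simp only [Fr.both, ← add_mul, eig_add h, one_mul]⟩
  have h4 : (t 4 : M4) ∈ S := ⟨(1, -1), by
    have := h.two
    simp only [Fr.both, map_one, map_neg, mul_one, mul_neg, eig]
    match_scalars <;> field_simp <;> ring⟩
  have h12 : (t 1 : M4) * t 2 ∈ S := by
    have e := hpsi (!![(0 : F), 1; -1, 0])
    rw [Fr.psi, quatEmb_eq q.cpar _ (w := 0) (x := 1) (y := 0) (z := 0) (by simp)] at e
    simpa [frameBasis] using e
  have h20 : (t 2 : M4) * t 0 ∈ S := by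
    have e := hpsi (!![a, b; b, -a])
    rw [Fr.psi, quatEmb_eq q.cpar _ (w := 0) (x := 0) (y := 1) (z := 0) (by simp)] at e
    simpa [frameBasis] using e
  have h10 : (t 1 : M4) * t 0 ∈ S := by
    have e := hmul h12 h20
    rwa [mul_assoc, h.sq_mul] at e
  have swap : ∀ {i j : Fin 5}, i ≠ j → (t i : M4) * t j ∈ S → (t j : M4) * t i ∈ S := fun hij e => by
    rw [h.anti hij.symm]; exact S.neg_mem e
  have h01 := swap (by decide) h10
  have h02 := swap (by decide) h20
  have h23 : (t 2 : M4) * t 3 ∈ S := by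
    have e := hmul h10 h4
    rwa [← h.prod_four, mul_assoc, h.sq_mul, h.sq_mul] at e
  have h03 : (t 0 : M4) * t 3 ∈ S := by
    have e := hmul h02 h23
    rwa [mul_assoc, h.sq_mul] at e
  have h13 : (t 1 : M4) * t 3 ∈ S := by
    have e := hmul h12 h23
    rwa [mul_assoc, h.sq_mul] at e
  have hanti : ∀ {i : Fin 5}, i ≠ 4 → ∀ A : M4, (t 4 : M4) * ((t i : M4) * A) = -((t i : M4) * ((t 4 : M4) * A)) :=
    fun hi A => h.anti_mul (Ne.symm hi) A
  have hmono : ∀ f, mono t f + (t 4 : M4) * mono t f * t 4 ∈ S := by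
    intro f
    have cm : ∀ {A : M4}, A ∈ S → A + (t 4 : M4) * A * t 4 ∈ S := fun {A} hA =>
      S.add_mem hA (hmul (hmul h4 hA) h4)
    have one : ∀ {i : Fin 5}, i ≠ 4 → (t i : M4) + (t 4 : M4) * t i * t 4 ∈ S := fun {i} hi => by
      rw [h.anti (Ne.symm hi), neg_mul, mul_assoc, h.sq, mul_one, add_neg_cancel]
      exact S.zero_mem
    have three : ∀ {i j k : Fin 5}, i ≠ 4 → j ≠ 4 → k ≠ 4 →
        (t i : M4) * t j * t k + (t 4 : M4) * ((t i : M4) * t j * t k) * t 4 ∈ S := fun {i j k} hi hj hk => by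
      rw [mul_assoc (t i : M4), hanti hi, hanti hj, h.anti (Ne.symm hk)]
      simp only [mul_neg, neg_mul, neg_neg, mul_assoc, h.sq, mul_one, add_neg_cancel]
      exact S.zero_mem
    rw [mono]
    generalize f 0 = c0
    generalize f 1 = c1
    generalize f 2 = c2
    generalize f 3 = c3
    fin_cases c0 <;> fin_cases c1 <;> fin_cases c2 <;> fin_cases c3 <;>
      simp only [Fin.val_zero, Fin.val_one, Fin.zero_eta, Fin.mk_one, pow_zero, pow_one, one_mul, mul_one]
    · rw [h.sq, ← two_smul F]; exact S.smul_mem _ ⟨(1, 1), h.both_one q⟩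
    · exact one (i := 3) (by decide)
    · exact one (i := 2) (by decide)
    · exact cm h23
    · exact one (i := 1) (by decide)
    · exact cm h13
    · exact cm h12
    · exact three (i := 1) (j := 2) (k := 3) (by decide) (by decide) (by decide)
    · exact one (i := 0) (by decide)
    · exact cm h03
    · exact cm h02
    · exact three (i := 0) (j := 2) (k := 3) (by decide) (by decide) (by decide)
    · exact cm h01
    · exact three (i := 0) (j := 1) (k := 3) (by decide) (by decide) (by decide)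
    · exact three (i := 0) (j := 1) (k := 2) (by decide) (by decide) (by decide)
    · rw [show (t 0 : M4) * t 1 * t 2 * t 3 = t 4 by simp only [mul_assoc, h.prod_four]]; exact cm h4
  have hgS : (g : M4) ∈ S := by
    obtain ⟨c, hcg⟩ := h.exists_sum (g : M4)
    have e : (g : M4) + (t 4 : M4) * g * t 4 = (2 : F) • (g : M4) := by
      have e1 := congrArg Units.val (mul_inv_eq_iff_eq_mul.1 hc)
      rw [Units.val_mul, Units.val_mul] at e1
      rw [← e1, mul_assoc, h.sq, mul_one, two_smul]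
    have hm : (g : M4) + (t 4 : M4) * g * t 4 ∈ S := by
      rw [hcg]
      simp only [Finset.mul_sum, Finset.sum_mul, mul_smul_comm, smul_mul_assoc, ← Finset.sum_add_distrib,
        ← smul_add]
      exact S.sum_mem fun f _ => S.smul_mem _ (hmono f)
    rw [e] at hm
    have := S.smul_mem (2 : F)⁻¹ hm
    rwa [smul_smul, inv_mul_cancel₀ h.two, one_smul] at this
  obtain ⟨⟨X, Y⟩, hXY⟩ := hgS
  have hsp := mem_spGL_iff.1 hg
  simp only at hXY
  rw [← hXY, h.adj_both, h.both_mul, Matrix.adjugate_mul, Matrix.adjugate_mul] at hsp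
  have hne : ∀ s : F, s * s = 1 → eig t s ≠ 0 := fun s hs e => by
    have e' : (t 4 : M4) = (-s) • (1 : M4) := by
      have h2 := congrArg (fun A => (2 * s) • A) e
      simp only [eig, smul_smul, smul_zero, smul_add] at h2
      rw [show 2 * s * ((2 : F)⁻¹ * s) = 1 by field_simp [h.two]; linear_combination hs,
        show 2 * s * (2 : F)⁻¹ = s by field_simp [h.two], one_smul] at h2
      rw [neg_smul]
      exact eq_neg_of_add_eq_zero_right h2
    have ha := h.anti (show (4 : Fin 5) ≠ 0 by decide)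
    rw [e', smul_mul_assoc, one_mul, mul_smul_comm, mul_one] at ha
    refine H66.Minus.eq_neg_self_false (g := t 0) h.two ?_
    have hs0 : (-s : F) ≠ 0 := neg_ne_zero.2 (fun h0 => by rw [h0, mul_zero] at hs; exact zero_ne_one hs)
    exact smul_right_injective M4 hs0 (by simpa using ha)
  have hdet : X.det = 1 ∧ Y.det = 1 := by
    have e0 : eig t 1 * eig t (-1) = 0 := by rw [h.eig_mul (one_mul 1)]; simp
    have e0' : eig t (-1) * eig t 1 = 0 := by rw [h.eig_mul (by norm_num)]; simp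
    have e1 : eig t 1 * eig t 1 = eig t 1 := by
      rw [h.eig_mul (one_mul 1)]; norm_num [h.two]
    have e2 : eig t (-1) * eig t (-1) = eig t (-1) := by
      rw [h.eig_mul (by norm_num)]; norm_num [h.two]
    simp only [Fr.both, map_smul, map_one, mul_smul_comm, mul_one] at hsp
    constructor
    · have e := congrArg (fun A => eig t 1 * A) hsp
      simp only [mul_add, mul_smul_comm, e0, e1, smul_zero, add_zero, mul_one] at e
      exact smul_left_injective F (hne 1 (one_mul 1)) (e.trans (one_smul F _).symm)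
    · have e := congrArg (fun A => eig t (-1) * A) hsp
      simp only [mul_add, mul_smul_comm, e0', e2, smul_zero, zero_add, mul_one] at e
      exact smul_left_injective F (hne (-1) (by norm_num)) (e.trans (one_smul F _).symm)
  exact ⟨⟨X, hdet.1⟩, ⟨Y, hdet.2⟩, Units.ext hXY.symm⟩

end Cfsg.Agent.H1.SpC6
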